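/-
helper68: definitions for CALL S1363 (B&G: `U` is abelian and `N_G(U) ≰ M` for a maximal
subgroup `M = K U M_σ` with `K ≠ 1`).
-/
import Mathlib

set_option autoImplicit false

namespace Cfsg.Agent.Helper68

universe u

variable {G : Type u} [Group G]

/-- The subgroup of `U` generated by its `π'`-elements (for abelian `U`: the Hall
`π'`-subgroup of `U`). -/
def bg63C (π : Set ℕ) (U : Subgroup G) : Subgroup G :=
  Subgroup.closure {u : G | u ∈ U ∧ ∀ q : ℕ, q.Prime → q ∣ orderOf u → q ∉ π}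

theorem bg63C_le (π : Set ℕ) (U : Subgroup G) : bg63C π U ≤ U :=
  (Subgroup.closure_le U).mpr fun _ hu => hu.1

theorem bg63C_mem_of (π : Set ℕ) {U : Subgroup G} {u : G} (hu : u ∈ U)
    (h : ∀ q : ℕ, q.Prime → q ∣ orderOf u → q ∉ π) : u ∈ bg63C π U :=
  Subgroup.subset_closure ⟨hu, h⟩

end Cfsg.Agent.Helper68
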