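import Mathlib
import Cfsg.Agent.Helper45.IDMinus
import Cfsg.Agent.Helper43.OrthSemi
import Cfsg.Agent.Helper43.USimDet
import Cfsg.Agent.Helper43.NormGen

set_option autoImplicit false

/-! Piece PROJ of CALL S2720 (helper43): orthogonal projection onto a non-degenerate
subspace `range j`. -/

namespace Cfsg.Agent.Helper68.PFPROJ

open Cfsg Matrix Polynomial Cfsg.Agent.Helper45 Cfsg.Agent.Helper45.ID

universe u

variable {ι : Type} [Fintype ι] [DecidableEq ι] {F : Type u} [Field F] [Fintype F]

omit [Fintype F] [Fintype ι] [DecidableEq ι] in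
/-- the polar form is reflexive -/
theorem pfproj_refl (Q : QuadraticForm F (ι → F)) :
    LinearMap.BilinForm.IsRefl (QuadraticMap.polarBilin Q) := by
  intro x y h
  have : QuadraticMap.polar ⇑Q y x = QuadraticMap.polar ⇑Q x y := QuadraticMap.polar_comm _ _ _
  show QuadraticMap.polar ⇑Q y x = 0
  rw [this]
  exact h

omit [Fintype F] [Fintype ι] [DecidableEq ι] in
/-- the restriction of the polar form to `range j` is non-degenerate -/
theorem pfproj_nondeg (Q : QuadraticForm F (ι → F)) {M : Type*} [AddCommGroup M] [Module F M]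
    (j : M →ₗ[F] (ι → F))
    (hnd : ∀ m : M, (∀ m' : M, QuadraticMap.polar ⇑Q (j m) (j m') = 0) → m = 0) :
    (LinearMap.BilinForm.restrict (QuadraticMap.polarBilin Q)
      (LinearMap.range j)).Nondegenerate := by
  constructor
  · rintro ⟨x, m, rfl⟩ hx
    have hm : m = 0 := by
      apply hnd
      intro m'
      exact hx ⟨j m', m', rfl⟩
    subst hm
    simp
  · rintro ⟨x, m, rfl⟩ hx
    have hm : m = 0 := by
      apply hnd
      intro m'
      have h := hx ⟨j m', m', rfl⟩
      have h2 : QuadraticMap.polar ⇑Q (j m') (j m) = 0 := h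
      rw [QuadraticMap.polar_comm]
      exact h2
    subst hm
    simp

/-- PROJ: the orthogonal projection onto a non-degenerate subspace `range j` -/
theorem pf_proj (Q : QuadraticForm F (ι → F)) {M : Type*} [AddCommGroup M] [Module F M]
    (j : M →ₗ[F] (ι → F))
    (hnd : ∀ m : M, (∀ m' : M, QuadraticMap.polar ⇑Q (j m) (j m') = 0) → m = 0) :
    ∃ P : Matrix ι ι F, P * P = P ∧ (∀ m : M, P *ᵥ j m = j m) ∧
      (∀ x : ι → F, ∃ m : M, P *ᵥ x = j m) ∧
      (∀ x y : ι → F, QuadraticMap.polar ⇑Q (P *ᵥ x) ((1 - P) *ᵥ y) = 0) := by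
  classical
  have hc : IsCompl (LinearMap.range j)
      (LinearMap.BilinForm.orthogonal (QuadraticMap.polarBilin Q) (LinearMap.range j)) :=
    LinearMap.BilinForm.isCompl_orthogonal_of_restrict_nondegenerate (pfproj_refl Q)
      (pfproj_nondeg Q j hnd)
  set π : (ι → F) →ₗ[F] (ι → F) := (LinearMap.range j).projection _ hc with hπ
  have hmv : ∀ x : ι → F, (LinearMap.toMatrix' π) *ᵥ x = π x := fun x => by
    rw [LinearMap.toMatrix'_mulVec]
  have hidem : π ∘ₗ π = π := by
    have := Submodule.isIdempotentElem_projection hc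
    exact this
  refine ⟨LinearMap.toMatrix' π, ?_, ?_, ?_, ?_⟩
  · rw [← LinearMap.toMatrix'_comp, hidem]
  · intro m
    rw [hmv]
    exact Submodule.projection_apply_of_mem_left hc ⟨m, rfl⟩
  · intro x
    rw [hmv]
    have h := Submodule.projection_apply_mem hc x
    obtain ⟨m, hm⟩ := h
    exact ⟨m, hm.symm⟩
  · intro x y
    rw [hmv, Matrix.sub_mulVec, Matrix.one_mulVec, hmv]
    have h1 : π x ∈ LinearMap.range j := Submodule.projection_apply_mem hc x
    have h2 : y - π y ∈
        LinearMap.BilinForm.orthogonal (QuadraticMap.polarBilin Q) (LinearMap.range j) := by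
      rw [← Submodule.projection_apply_eq_zero_iff hc]
      rw [map_sub]
      have : π (π y) = π y := by
        have := congrArg (fun f => f y) hidem
        exact this
      show π y - π (π y) = 0
      rw [this, sub_self]
    exact h2 _ h1

end Cfsg.Agent.Helper68.PFPROJ
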