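import Mathlib
import Cfsg.Agent.Helper45.IDMinus
import Cfsg.Agent.Helper43.OrthSemi
import Cfsg.Agent.Helper43.USimDet
import Cfsg.Agent.Helper43.NormGen

set_option autoImplicit false

/-! Piece UDEF of CALL S2720 (helper43): the isometry acting as `z` on `range j` and trivially
on its orthogonal complement. -/

namespace Cfsg.Agent.Helper68.PFUDEF

open Cfsg Matrix Polynomial Cfsg.Agent.Helper45 Cfsg.Agent.Helper45.ID

universe u

variable {ι : Type} [Fintype ι] [DecidableEq ι] {F : Type u} [Field F] [Fintype F]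

omit [Fintype F] [Fintype ι] [DecidableEq ι] in
/-- `Q (a + b) = Q a + Q b` for orthogonal `a`, `b` -/
theorem pfu_add (Q : QuadraticForm F (ι → F)) (a b : ι → F)
    (h : QuadraticMap.polar ⇑Q a b = 0) : Q (a + b) = Q a + Q b := by
  unfold QuadraticMap.polar at h
  linear_combination h

omit [Fintype F] in
/-- the `M`-coordinate of `P x` -/
theorem pfu_coord {M : Type*} [AddCommGroup M] [Module F M]
    (j : M →ₗ[F] (ι → F)) (hj : Function.Injective j) (P : Matrix ι ι F)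
    (hPr : ∀ x : ι → F, ∃ m : M, P *ᵥ x = j m) :
    ∃ c : (ι → F) →ₗ[F] M, ∀ x : ι → F, j (c x) = P *ᵥ x := by
  classical
  have hmem : ∀ x : ι → F, Matrix.mulVecLin P x ∈ LinearMap.range j := by
    intro x
    obtain ⟨m, hm⟩ := hPr x
    exact ⟨m, by rw [Matrix.mulVecLin_apply, hm]⟩
  refine ⟨(LinearEquiv.ofInjective j hj).symm.toLinearMap ∘ₗ
    (LinearMap.codRestrict (LinearMap.range j) (Matrix.mulVecLin P) hmem), ?_⟩
  intro x
  have h1 : (LinearEquiv.ofInjective j hj)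
      ((LinearEquiv.ofInjective j hj).symm
        (LinearMap.codRestrict (LinearMap.range j) (Matrix.mulVecLin P) hmem x))
      = LinearMap.codRestrict (LinearMap.range j) (Matrix.mulVecLin P) hmem x :=
    LinearEquiv.apply_symm_apply _ _
  have h2 := congrArg Subtype.val h1
  rw [LinearEquiv.ofInjective_apply] at h2
  simpa using h2

omit [Fintype F] in
/-- the linear map `T x = j (z (c x)) + (1 - P) x` and its properties -/
theorem pfu_map (Q : QuadraticForm F (ι → F))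
    {M : Type*} [AddCommGroup M] [Module F M]
    (j : M →ₗ[F] (ι → F)) (hj : Function.Injective j) (z : M →ₗ[F] M) (P : Matrix ι ι F)
    (hP : P * P = P) (hPj : ∀ m : M, P *ᵥ j m = j m) (hPr : ∀ x : ι → F, ∃ m : M, P *ᵥ x = j m)
    (horth : ∀ x y : ι → F, QuadraticMap.polar ⇑Q (P *ᵥ x) ((1 - P) *ᵥ y) = 0)
    (hz : ∀ m : M, Q (j (z m)) = Q (j m)) :
    ∃ T : (ι → F) →ₗ[F] (ι → F), (∀ x, Q (T x) = Q x) ∧ (∀ m : M, T (j m) = j (z m)) ∧
      (∀ x, T ((1 - P) *ᵥ x) = (1 - P) *ᵥ x) := by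
  classical
  obtain ⟨c, hc⟩ := pfu_coord j hj P hPr
  refine ⟨j ∘ₗ z ∘ₗ c + Matrix.mulVecLin (1 - P), ?_, ?_, ?_⟩
  · intro x
    show Q (j (z (c x)) + (1 - P) *ᵥ x) = Q x
    have h1 : QuadraticMap.polar ⇑Q (j (z (c x))) ((1 - P) *ᵥ x) = 0 := by
      rw [← hPj (z (c x))]
      exact horth _ _
    rw [pfu_add Q _ _ h1, hz, hc]
    have h2 := pfu_add Q _ _ (horth x x)
    rw [← h2]
    congr 1
    rw [Matrix.sub_mulVec, Matrix.one_mulVec]
    abel
  · intro m
    show j (z (c (j m))) + (1 - P) *ᵥ (j m) = j (z m)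
    have h1 : c (j m) = m := by
      apply hj
      rw [hc, hPj]
    rw [h1, Matrix.sub_mulVec, Matrix.one_mulVec, hPj, sub_self, add_zero]
  · intro x
    show j (z (c ((1 - P) *ᵥ x))) + (1 - P) *ᵥ ((1 - P) *ᵥ x) = (1 - P) *ᵥ x
    have h0 : P *ᵥ ((1 - P) *ᵥ x) = 0 := by
      rw [Matrix.mulVec_mulVec, Matrix.mul_sub, Matrix.mul_one, hP, sub_self, Matrix.zero_mulVec]
    have h1 : c ((1 - P) *ᵥ x) = 0 := by
      apply hj
      rw [hc, h0, map_zero]
    rw [h1, map_zero, map_zero, zero_add]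
    have h2 : (1 - P) * (1 - P) = 1 - P := by
      rw [Matrix.mul_sub, Matrix.sub_mul, Matrix.sub_mul, hP]
      simp
    rw [Matrix.mulVec_mulVec, h2]

omit [Fintype F] [Fintype ι] [DecidableEq ι] in
/-- a `Q`-preserving linear map is injective when the polar form is non-degenerate -/
theorem pfu_inj (Q : QuadraticForm F (ι → F)) (hQ : (QuadraticMap.polarBilin Q).Nondegenerate)
    (T : (ι → F) →ₗ[F] (ι → F)) (hT : ∀ x, Q (T x) = Q x) : Function.Injective T := by
  rw [← LinearMap.ker_eq_bot, LinearMap.ker_eq_bot']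
  intro x hx
  apply hQ.1
  intro y
  show QuadraticMap.polar ⇑Q x y = 0
  have h1 : QuadraticMap.polar ⇑Q (T x) (T y) = QuadraticMap.polar ⇑Q x y := by
    unfold QuadraticMap.polar
    rw [← map_add, hT, hT, hT]
  rw [← h1, hx]
  unfold QuadraticMap.polar
  simp

/-- UDEF: the isometry acting as `z` on `range j` and trivially on its orthogonal complement -/
theorem pf_udef (Q : QuadraticForm F (ι → F)) (hQ : (QuadraticMap.polarBilin Q).Nondegenerate)
    {M : Type*} [AddCommGroup M] [Module F M]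
    (j : M →ₗ[F] (ι → F)) (hj : Function.Injective j) (z : M →ₗ[F] M) (P : Matrix ι ι F)
    (hP : P * P = P) (hPj : ∀ m : M, P *ᵥ j m = j m) (hPr : ∀ x : ι → F, ∃ m : M, P *ᵥ x = j m)
    (horth : ∀ x y : ι → F, QuadraticMap.polar ⇑Q (P *ᵥ x) ((1 - P) *ᵥ y) = 0)
    (hz : ∀ m : M, Q (j (z m)) = Q (j m)) :
    ∃ u : ↥(isometryGroup F ⇑Q), (∀ m : M, ((u : GL ι F) : Matrix ι ι F) *ᵥ j m = j (z m)) ∧
      ((u : GL ι F) : Matrix ι ι F) * (1 - P) = 1 - P := by
  classical
  obtain ⟨T, hTQ, hTj, hT1⟩ := pfu_map Q j hj z P hP hPj hPr horth hz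
  have hinj := pfu_inj Q hQ T hTQ
  have hmv : ∀ x : ι → F, (LinearMap.toMatrix' T) *ᵥ x = T x := fun x => by
    rw [LinearMap.toMatrix'_mulVec]
  have hU : IsUnit (LinearMap.toMatrix' T) := by
    rw [← Matrix.mulVec_injective_iff_isUnit]
    intro x y hxy
    apply hinj
    rw [← hmv, ← hmv]
    exact hxy
  have hval : ((hU.unit : GL ι F) : Matrix ι ι F) = LinearMap.toMatrix' T := IsUnit.unit_spec hU
  have hmem : (hU.unit : GL ι F) ∈ isometryGroup F ⇑Q := by
    rw [mem_iso_iff]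
    intro v
    rw [hval, hmv, hTQ]
  refine ⟨⟨hU.unit, hmem⟩, ?_, ?_⟩
  · intro m
    show ((hU.unit : GL ι F) : Matrix ι ι F) *ᵥ j m = j (z m)
    rw [hval, hmv, hTj]
  · show ((hU.unit : GL ι F) : Matrix ι ι F) * (1 - P) = 1 - P
    rw [hval]
    apply Matrix.toLin'.injective
    apply LinearMap.ext
    intro x
    rw [Matrix.toLin'_apply, Matrix.toLin'_apply, ← Matrix.mulVec_mulVec, hmv, hT1]

end Cfsg.Agent.Helper68.PFUDEF
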