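import Mathlib
import Cfsg.Agent.Helper45.IDMinus
import Cfsg.Agent.Helper43.OrthSemi
import Cfsg.Agent.Helper43.USimDet
import Cfsg.Agent.Helper43.NormGen

set_option autoImplicit false

/-! Piece AL2 of CALL S2720 (helper43): a finite field `K ⊇ F` and a linear form `ℓ` with
`ℓ 1 ≠ 0`; `#{(a, b) ≠ 0 | ℓ (a * b) = d} = (#K - 1) * (#ker ℓ + [d = 0])`. -/

namespace Cfsg.Agent.Helper68.PFAL2

open Cfsg Matrix Polynomial Cfsg.Agent.Helper45 Cfsg.Agent.Helper45.ID

universe u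

variable {ι : Type} [Fintype ι] [DecidableEq ι] {F : Type u} [Field F] [Fintype F]

omit [Fintype F] in
/-- all fibres of `ℓ` have the size of the kernel -/
theorem pfal2_fiber {K : Type*} [Field K] [Algebra F K] (ℓ : K →ₗ[F] F) (hℓ : ℓ 1 ≠ 0)
    (d : F) : Nat.card {c : K // ℓ c = d} = Nat.card {c : K // ℓ c = 0} := by
  have h0 : ℓ ((d / ℓ 1) • (1 : K)) = d := by
    rw [map_smul, smul_eq_mul, div_mul_cancel₀ _ hℓ]
  refine Nat.card_congr
    { toFun := fun c => ⟨c.1 - (d / ℓ 1) • (1 : K), by rw [map_sub, c.2, h0, sub_self]⟩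
      invFun := fun c => ⟨c.1 + (d / ℓ 1) • (1 : K), by rw [map_add, c.2, h0, zero_add]⟩
      left_inv := fun c => by ext; simp
      right_inv := fun c => by ext; simp }

/-- the kernel of `ℓ` has odd size -/
theorem pfal2_ker_odd {K : Type*} [Field K] [Finite K] [Algebra F K]
    (hq : Odd (Fintype.card F)) (ℓ : K →ₗ[F] F) : Odd (Nat.card {c : K // ℓ c = 0}) := by
  have h1 : Nat.card {c : K // ℓ c = 0} = Nat.card ↥(LinearMap.ker ℓ) :=
    Nat.card_congr (Equiv.subtypeEquivRight (fun x => LinearMap.mem_ker.symm))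
  rw [h1, Module.natCard_eq_pow_finrank (K := F), Nat.card_eq_fintype_card]
  exact hq.pow

/-- `K` has odd size -/
theorem pfal2_card_odd {K : Type*} [Field K] [Finite K] [Algebra F K]
    (hq : Odd (Fintype.card F)) : Odd (Nat.card K) := by
  rw [Module.natCard_eq_pow_finrank (K := F) (V := K), Nat.card_eq_fintype_card]
  exact hq.pow

omit [Fintype F] in
/-- the slice over `a ≠ 0` -/
theorem pfal2_slice_ne {K : Type*} [Field K] [Algebra F K] (ℓ : K →ₗ[F] F) (d : F)
    (a : K) (ha : a ≠ 0) :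
    Nat.card {b : K // ((a, b) : K × K) ≠ 0 ∧ ℓ (a * b) = d} = Nat.card {c : K // ℓ c = d} := by
  refine Nat.card_congr
    { toFun := fun b => ⟨a * b.1, b.2.2⟩
      invFun := fun c => ⟨a⁻¹ * c.1, by
        refine ⟨fun h => ha (congrArg Prod.fst h), ?_⟩
        rw [mul_inv_cancel_left₀ ha]
        exact c.2⟩
      left_inv := fun b => by
        ext
        show a⁻¹ * (a * b.1) = b.1
        rw [inv_mul_cancel_left₀ ha]
      right_inv := fun c => by
        ext
        show a * (a⁻¹ * c.1) = c.1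
        rw [mul_inv_cancel_left₀ ha] }

omit [Fintype F] in
/-- the slice over `a = 0` -/
theorem pfal2_slice_zero {K : Type*} [Field K] [Finite K] [Algebra F K] (ℓ : K →ₗ[F] F)
    (d : F) [Decidable (d = 0)] :
    Nat.card {b : K // ((0, b) : K × K) ≠ 0 ∧ ℓ (0 * b) = d}
      = if d = 0 then Nat.card K - 1 else 0 := by
  by_cases hd : d = 0
  · rw [if_pos hd, ← Nat.card_units, Nat.card_congr unitsEquivNeZero]
    refine Nat.card_congr
      { toFun := fun b => ⟨b.1, fun h => b.2.1 (by rw [h]; rfl)⟩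
        invFun := fun b => ⟨b.1, by
          refine ⟨fun h => b.2 (congrArg Prod.snd h), ?_⟩
          rw [zero_mul, map_zero, hd]⟩
        left_inv := fun b => rfl
        right_inv := fun b => rfl }
  · rw [if_neg hd]
    have : IsEmpty {b : K // ((0, b) : K × K) ≠ 0 ∧ ℓ (0 * b) = d} := by
      constructor
      rintro ⟨b, -, hb⟩
      rw [zero_mul, map_zero] at hb
      exact hd hb.symm
    exact Nat.card_of_isEmpty

/-- the count -/
theorem pfal2_count {K : Type*} [Field K] [Finite K] [Algebra F K] (ℓ : K →ₗ[F] F)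
    (hℓ : ℓ 1 ≠ 0) (d : F) [Decidable (d = 0)] :
    Nat.card {ab : K × K // ab ≠ 0 ∧ ℓ (ab.1 * ab.2) = d}
      = (Nat.card K - 1) * (Nat.card {c : K // ℓ c = 0} + if d = 0 then 1 else 0) := by
  haveI : Fintype K := Fintype.ofFinite K
  haveI : DecidableEq K := Classical.decEq K
  have h1 : Nat.card {ab : K × K // ab ≠ 0 ∧ ℓ (ab.1 * ab.2) = d}
      = Nat.card (Σ a : K, {b : K // ((a, b) : K × K) ≠ 0 ∧ ℓ (a * b) = d}) :=
    Nat.card_congr
      (Equiv.subtypeProdEquivSigmaSubtype (fun a b => ((a, b) : K × K) ≠ 0 ∧ ℓ (a * b) = d))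
  rw [h1, Nat.card_sigma]
  have h2 : ∀ a : K, Nat.card {b : K // ((a, b) : K × K) ≠ 0 ∧ ℓ (a * b) = d}
      = if a = 0 then (if d = 0 then Nat.card K - 1 else 0)
        else Nat.card {c : K // ℓ c = 0} := by
    intro a
    by_cases ha : a = 0
    · subst ha
      rw [if_pos rfl]
      exact pfal2_slice_zero ℓ d
    · rw [if_neg ha, pfal2_slice_ne ℓ d a ha, pfal2_fiber ℓ hℓ d]
  rw [Finset.sum_congr rfl (fun a _ => h2 a)]
  rw [← Finset.add_sum_erase Finset.univ _ (Finset.mem_univ (0 : K)), if_pos rfl]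
  have h3 : ∀ a ∈ (Finset.univ : Finset K).erase 0,
      (if a = 0 then (if d = 0 then Nat.card K - 1 else 0) else Nat.card {c : K // ℓ c = 0})
        = Nat.card {c : K // ℓ c = 0} := by
    intro a ha
    rw [if_neg (Finset.ne_of_mem_erase ha)]
  rw [Finset.sum_congr rfl h3, Finset.sum_const, Finset.card_erase_of_mem (Finset.mem_univ _),
    Finset.card_univ, ← Nat.card_eq_fintype_card, smul_eq_mul]
  by_cases hd : d = 0
  · rw [if_pos hd, if_pos hd]
    ring
  · rw [if_neg hd, if_neg hd]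
    ring

/-- AL2: a finite field `K ⊇ F` and a linear form `ℓ` with `ℓ 1 ≠ 0`.  `ζ` generates `Kˣ`,
`n = #K - 1`, and `#{(a, b) ≠ 0 | ℓ (a * b) = d} = n * (#ker ℓ + [d = 0])`. -/
theorem pf_al2 {K : Type*} [Field K] [Finite K] [Algebra F K] (hq : Odd (Fintype.card F))
    (ℓ : K →ₗ[F] F) (hℓ : ℓ 1 ≠ 0) :
    ∃ (ζ : K) (n : ℕ) (o : F → ℕ), ζ ≠ 0 ∧ Even n ∧ 0 < n ∧ ζ ^ n = 1 ∧
      (∀ i : ℕ, ζ ^ i = 1 → n ∣ i) ∧
      (∀ d : F, Nat.card {ab : K × K // ab ≠ 0 ∧ ℓ (ab.1 * ab.2) = d} = n * o d) ∧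
      (∀ d : F, d ≠ 0 → Odd (o d)) ∧ Even (o 0) := by
  classical
  obtain ⟨g, hg⟩ := IsCyclic.exists_generator (α := Kˣ)
  have hord : orderOf g = Nat.card K - 1 := by
    rw [orderOf_eq_card_of_forall_mem_zpowers hg, Nat.card_units]
  have hKodd : Odd (Nat.card K) := pfal2_card_odd hq
  have hK1 : 1 < Nat.card K := Finite.one_lt_card
  refine ⟨(g : K), Nat.card K - 1,
    fun d => Nat.card {c : K // ℓ c = 0} + if d = 0 then 1 else 0, g.ne_zero, ?_, ?_, ?_, ?_,
    ?_, ?_, ?_⟩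
  · obtain ⟨k, hk⟩ := hKodd
    exact ⟨k, by omega⟩
  · omega
  · rw [← hord, ← Units.val_pow_eq_pow_val, pow_orderOf_eq_one, Units.val_one]
  · intro i hi
    rw [← hord]
    apply orderOf_dvd_of_pow_eq_one
    apply Units.ext
    rw [Units.val_pow_eq_pow_val, hi, Units.val_one]
  · intro d
    exact pfal2_count ℓ hℓ d
  · intro d hd
    show Odd (Nat.card {c : K // ℓ c = 0} + if d = 0 then 1 else 0)
    rw [if_neg hd, add_zero]
    exact pfal2_ker_odd hq ℓ
  · show Even (Nat.card {c : K // ℓ c = 0} + if (0 : F) = 0 then 1 else 0)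
    rw [if_pos rfl]
    exact (pfal2_ker_odd hq ℓ).add_one

end Cfsg.Agent.Helper68.PFAL2
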