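/-
helper68: standalone lemmas for Bender–Glauberman Theorem 3.6 (statement S1444), following
helper72's blueprint: the Z-group lemma, the "centralized Sylow subgroup" lemma and the closure of
`p`-length under subdirect products.  Namespace `Cfsg.Agent.Helper68`.
-/
import Mathlib
import Cfsg.Agent.Helper63.PLength
import Cfsg.Agent.Helper22.Generation

set_option autoImplicit false
set_option linter.style.haveILetI false

namespace Cfsg.Agent.Helper68

open Cfsg Subgroup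
open scoped commutatorElement

section BG36Aux

/-- **Z-group lemma.**  Let `K` be a Z-group with `O_p(K) = 1`.  If `r` normalizes `K` and a
`p`-subgroup `S` of `K`, then `r` centralizes `S`. -/
theorem bg36_zgroup_centralizes {X : Type*} [Group X] [Finite X] (p : ℕ) [Fact p.Prime]
    {K S : Subgroup X} (hZ : IsZGroup ↥K)
    (hOp : ∀ N : Subgroup X, N ≤ K → K ≤ normalizer (N : Set X) → IsPGroup p ↥N → N = ⊥)
    (hSK : S ≤ K) (hSp : IsPGroup p ↥S) {r : X} (hrK : r ∈ normalizer (K : Set X))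
    (hrS : r ∈ normalizer (S : Set X)) : ∀ s ∈ S, r * s = s * r := by
  have hDK : (⁅K, K⁆ : Subgroup X) ≤ K := Subgroup.commutator_le_self K
  -- `D = [K, K]` is cyclic
  have hDcyc : IsCyclic ↥(⁅K, K⁆ : Subgroup X) := by
    have h1 : IsCyclic ↥(commutator ↥K) := IsZGroup.isCyclic_commutator (G := ↥K)
    have e := (commutator ↥K).equivMapOfInjective K.subtype K.subtype_injective
    have h2 : IsCyclic ↥((commutator ↥K).map K.subtype) :=
      isCyclic_of_surjective e.toMonoidHom e.surjective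
    rwa [Subgroup.map_subtype_commutator] at h2
  obtain ⟨g, hg⟩ := hDcyc.exists_generator
  have hgen : ∀ d ∈ (⁅K, K⁆ : Subgroup X), ∃ n : ℤ, (g : X) ^ n = d := by
    intro d hd
    obtain ⟨n, hn⟩ := Subgroup.mem_zpowers_iff.mp (hg ⟨d, hd⟩)
    exact ⟨n, by simpa using congrArg Subtype.val hn⟩
  -- normalizers of `D`
  have hKD : ∀ k ∈ K, ∀ d ∈ (⁅K, K⁆ : Subgroup X), k * d * k⁻¹ ∈ (⁅K, K⁆ : Subgroup X) := by
    intro k hk d hd
    have h1 : k ∈ normalizer ((⁅K, K⁆ : Subgroup X) : Set X) :=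
      Cfsg.Agent.Helper22.mem_normalizer_commutator_self (Subgroup.le_normalizer hk)
    exact (Subgroup.mem_normalizer_iff.mp h1 d).mp hd
  have hrD : r ∈ normalizer ((⁅K, K⁆ : Subgroup X) : Set X) :=
    Cfsg.Agent.Helper22.mem_normalizer_commutator_self hrK
  -- the centralizer of `D` in `K` is abelian
  have hCab : ∀ a ∈ K ⊓ centralizer ((⁅K, K⁆ : Subgroup X) : Set X),
      ∀ b ∈ K ⊓ centralizer ((⁅K, K⁆ : Subgroup X) : Set X), a * b = b * a := by
    intro a ha b hb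
    let f : ↥(K ⊓ centralizer ((⁅K, K⁆ : Subgroup X) : Set X)) →* Abelianization ↥K :=
      Abelianization.of.comp (Subgroup.inclusion inf_le_left)
    have hker : f.ker ≤ center ↥(K ⊓ centralizer ((⁅K, K⁆ : Subgroup X) : Set X)) := by
      intro x hx
      have h1 : Subgroup.inclusion (inf_le_left : K ⊓ centralizer ((⁅K, K⁆ : Subgroup X) : Set X) ≤ K) x ∈
          commutator ↥K := by
        rw [← Abelianization.ker_of]
        exact hx
      have h2 : (x : X) ∈ (⁅K, K⁆ : Subgroup X) :=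
        (Subgroup.map_subtype_commutator K).le ⟨_, h1, rfl⟩
      rw [Subgroup.mem_center_iff]
      intro c
      apply Subtype.ext
      exact (Subgroup.mem_centralizer_iff.mp c.2.2 (x : X) h2).symm
    have h3 := (f.isMulCommutative_of_isCyclic_of_ker_le_center hker).is_comm.comm ⟨a, ha⟩ ⟨b, hb⟩
    exact congrArg Subtype.val h3
  -- the `p`-elements of that centralizer
  let T : Subgroup X :=
    { carrier := {c | c ∈ K ⊓ centralizer ((⁅K, K⁆ : Subgroup X) : Set X) ∧ ∃ n : ℕ, c ^ p ^ n = 1}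
      one_mem' := ⟨one_mem _, 0, one_pow _⟩
      mul_mem' := by
        rintro a b ⟨ha, n, hn⟩ ⟨hb, m, hm⟩
        refine ⟨mul_mem ha hb, n + m, ?_⟩
        have hc : Commute a b := hCab a ha b hb
        rw [hc.mul_pow, pow_add, pow_mul, hn, one_pow, mul_comm (p ^ n), pow_mul, hm, one_pow,
          one_mul]
      inv_mem' := by
        rintro a ⟨ha, n, hn⟩
        exact ⟨inv_mem ha, n, by rw [inv_pow, hn, inv_one]⟩ }
  have hTK : T ≤ K := fun c hc => hc.1.1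
  have hTp : IsPGroup p ↥T := by
    intro c
    obtain ⟨n, hn⟩ := c.2.2
    exact ⟨n, Subtype.ext (by simpa using hn)⟩
  have hconjT : ∀ k ∈ K, ∀ c ∈ T, k * c * k⁻¹ ∈ T := by
    rintro k hk c ⟨⟨hcK, hcD⟩, n, hn⟩
    refine ⟨⟨K.mul_mem (K.mul_mem hk hcK) (K.inv_mem hk), ?_⟩, n, ?_⟩
    · refine Subgroup.mem_centralizer_iff.mpr ?_
      intro d hd
      have h1 : k⁻¹ * d * k⁻¹⁻¹ ∈ (⁅K, K⁆ : Subgroup X) := hKD k⁻¹ (K.inv_mem hk) d hd
      have h2 := Subgroup.mem_centralizer_iff.mp hcD _ h1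
      have e1 : d * (k * c * k⁻¹) = k * (k⁻¹ * d * k⁻¹⁻¹ * c) * k⁻¹ := by group
      have e2 : k * c * k⁻¹ * d = k * (c * (k⁻¹ * d * k⁻¹⁻¹)) * k⁻¹ := by group
      rw [e1, e2, h2]
    · rw [conj_pow, hn, mul_one, mul_inv_cancel]
  have hKT : K ≤ normalizer (T : Set X) := by
    intro k hk
    rw [Subgroup.mem_normalizer_iff]
    intro c
    refine ⟨fun hc => hconjT k hk c hc, fun hc => ?_⟩
    have h1 := hconjT k⁻¹ (K.inv_mem hk) _ hc
    have e : k⁻¹ * (k * c * k⁻¹) * k⁻¹⁻¹ = c := by group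
    rwa [e] at h1
  have hT : T = ⊥ := hOp T hTK hKT hTp
  -- the main computation
  intro s hs
  have hsK : s ∈ K := hSK hs
  have hrs : r * s * r⁻¹ ∈ S := (Subgroup.mem_normalizer_iff.mp hrS s).mp hs
  have hconj : ∀ d ∈ (⁅K, K⁆ : Subgroup X),
      (r * s * r⁻¹) * d * (r * s * r⁻¹)⁻¹ = s * d * s⁻¹ := by
    have hg0 : (r * s * r⁻¹) * (g : X) * (r * s * r⁻¹)⁻¹ = s * (g : X) * s⁻¹ := by
      obtain ⟨a, ha⟩ := hgen _ (hKD s hsK g g.2)
      have hr' : r⁻¹ * (g : X) * r⁻¹⁻¹ ∈ (⁅K, K⁆ : Subgroup X) :=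
        (Subgroup.mem_normalizer_iff.mp (inv_mem hrD) _).mp g.2
      obtain ⟨b, hb⟩ := hgen _ hr'
      have e1 : (r * s * r⁻¹) * (g : X) * (r * s * r⁻¹)⁻¹ =
          r * (s * (r⁻¹ * (g : X) * r⁻¹⁻¹) * s⁻¹) * r⁻¹ := by group
      rw [e1, ← hb, ← conj_zpow, ← ha, ← zpow_mul, mul_comm a b, zpow_mul, hb, ← conj_zpow]
      have e2 : r * (r⁻¹ * (g : X) * r⁻¹⁻¹) * r⁻¹ = (g : X) := by group
      rw [e2]
    intro d hd
    obtain ⟨n, rfl⟩ := hgen d hd
    rw [← conj_zpow, hg0, conj_zpow]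
  have ht : s⁻¹ * (r * s * r⁻¹) ∈ T := by
    refine ⟨⟨K.mul_mem (K.inv_mem hsK) (hSK hrs), ?_⟩, ?_⟩
    · refine Subgroup.mem_centralizer_iff.mpr ?_
      intro d hd
      have h1 := hconj d hd
      have e1 : d * (s⁻¹ * (r * s * r⁻¹)) = s⁻¹ * (s * d * s⁻¹) * (r * s * r⁻¹) := by group
      rw [e1, ← h1]
      group
    · obtain ⟨n, hn⟩ := hSp ⟨s⁻¹ * (r * s * r⁻¹), S.mul_mem (S.inv_mem hs) hrs⟩
      exact ⟨n, by simpa using congrArg Subtype.val hn⟩
  rw [hT, Subgroup.mem_bot] at ht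
  have e : r * s = s * (s⁻¹ * (r * s * r⁻¹)) * r := by group
  rw [e, ht, mul_one]

/-! ### `p`-length of direct and subdirect products -/

open Cfsg.Agent.Helper63.PLen in
theorem bg36_fac_mul {p n a b : ℕ} (ha : Fac p n a) (hb : Fac p n b) : Fac p n (a * b) := by
  by_cases hn : Even n
  · rw [fac_even hn] at ha hb ⊢
    exact Nat.Coprime.mul_left ha hb
  · rw [fac_odd hn] at ha hb ⊢
    obtain ⟨m₁, rfl⟩ := ha
    obtain ⟨m₂, rfl⟩ := hb
    exact ⟨m₁ + m₂, (pow_add p m₁ m₂).symm⟩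

theorem bg36_card_prod {A B : Type*} [Group A] [Group B] (H : Subgroup A) (K : Subgroup B) :
    Nat.card ↥(H.prod K) = Nat.card ↥H * Nat.card ↥K := by
  rw [Nat.card_congr (Subgroup.prodEquiv H K).toEquiv, Nat.card_prod]

theorem bg36_relIndex_prod {A B : Type*} [Group A] [Group B] [Finite A] [Finite B]
    {H₁ K₁ : Subgroup A} {H₂ K₂ : Subgroup B} (h₁ : H₁ ≤ K₁) (h₂ : H₂ ≤ K₂) :
    (H₁.prod H₂).relIndex (K₁.prod K₂) = H₁.relIndex K₁ * H₂.relIndex K₂ := by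
  have hle : H₁.prod H₂ ≤ K₁.prod K₂ := Subgroup.prod_mono h₁ h₂
  have e1 : Nat.card ↥(H₁.prod H₂) * (H₁.prod H₂).relIndex (K₁.prod K₂) =
      Nat.card ↥(K₁.prod K₂) := by
    have := Subgroup.relIndex_mul_relIndex ⊥ (H₁.prod H₂) (K₁.prod K₂) bot_le hle
    rwa [Subgroup.relIndex_bot_left, Subgroup.relIndex_bot_left] at this
  have e2 : Nat.card ↥H₁ * H₁.relIndex K₁ = Nat.card ↥K₁ := by
    have := Subgroup.relIndex_mul_relIndex ⊥ H₁ K₁ bot_le h₁
    rwa [Subgroup.relIndex_bot_left, Subgroup.relIndex_bot_left] at this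
  have e3 : Nat.card ↥H₂ * H₂.relIndex K₂ = Nat.card ↥K₂ := by
    have := Subgroup.relIndex_mul_relIndex ⊥ H₂ K₂ bot_le h₂
    rwa [Subgroup.relIndex_bot_left, Subgroup.relIndex_bot_left] at this
  rw [bg36_card_prod, bg36_card_prod, ← e2, ← e3] at e1
  have hpos : 0 < Nat.card ↥H₁ * Nat.card ↥H₂ := Nat.mul_pos Nat.card_pos Nat.card_pos
  apply Nat.eq_of_mul_eq_mul_left hpos
  rw [e1]
  ring

open Cfsg.Agent.Helper63.PLen in
theorem bg36_nchain_prod {A B : Type*} [Group A] [Group B] [Finite A] [Finite B] (p : ℕ) :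
    ∀ (n : ℕ) (K₁ : Subgroup A) (K₂ : Subgroup B), NChain p (⊥ : Subgroup A) n K₁ →
      NChain p (⊥ : Subgroup B) n K₂ → NChain p (⊥ : Subgroup (A × B)) n (K₁.prod K₂) := by
  intro n
  induction n with
  | zero =>
    intro K₁ K₂ h₁ h₂
    rw [nchain_zero] at h₁ h₂ ⊢
    rw [h₁, h₂, Subgroup.bot_prod_bot]
  | succ n ih =>
    intro K₁ K₂ h₁ h₂
    obtain ⟨H₁, hc₁, hle₁, hn₁, hf₁⟩ := nchain_succ.mp h₁
    obtain ⟨H₂, hc₂, hle₂, hn₂, hf₂⟩ := nchain_succ.mp h₂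
    refine nchain_succ.mpr ⟨H₁.prod H₂, ih H₁ H₂ hc₁ hc₂, Subgroup.prod_mono hle₁ hle₂,
      inferInstance, ?_⟩
    rw [bg36_relIndex_prod hle₁ hle₂]
    exact bg36_fac_mul hf₁ hf₂

open Cfsg.Agent.Helper63.PLen in
/-- The `p`-length of a direct product. -/
theorem bg36_pLengthLE_prod {A B : Type*} [Group A] [Group B] [Finite A] [Finite B] (p : ℕ)
    [Fact p.Prime] {k : ℕ} (hA : PLengthLE p k A) (hB : PLengthLE p k B) :
    PLengthLE p k (A × B) := by
  rw [pLengthLE_iff] at hA hB ⊢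
  have h := bg36_nchain_prod p (2 * k + 1) ⊤ ⊤ hA hB
  rwa [Subgroup.top_prod_top] at h

open Cfsg.Agent.Helper63.PLen in
/-- **Subdirect products.**  If `N₁ ∩ N₂ = 1` and both `X / N₁` and `X / N₂` have `p`-length at
most `k`, then so does `X`. -/
theorem bg36_pLengthLE_of_inf_eq_bot {X : Type*} [Group X] [Finite X] (p : ℕ) [Fact p.Prime]
    {k : ℕ} (N₁ N₂ : Subgroup X) [N₁.Normal] [N₂.Normal] (h : N₁ ⊓ N₂ = ⊥)
    (h₁ : PLengthLE p k (X ⧸ N₁)) (h₂ : PLengthLE p k (X ⧸ N₂)) : PLengthLE p k X := by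
  let f : X →* (X ⧸ N₁) × (X ⧸ N₂) := (QuotientGroup.mk' N₁).prod (QuotientGroup.mk' N₂)
  have hf : Function.Injective f := by
    rw [← MonoidHom.ker_eq_bot_iff, eq_bot_iff, ← h]
    intro x hx
    have hx' : f x = 1 := hx
    have h1 : (QuotientGroup.mk' N₁) x = 1 := congrArg Prod.fst hx'
    have h2 : (QuotientGroup.mk' N₂) x = 1 := congrArg Prod.snd hx'
    exact ⟨(QuotientGroup.eq_one_iff x).mp h1, (QuotientGroup.eq_one_iff x).mp h2⟩
  have hP : PLengthLE p k ((X ⧸ N₁) × (X ⧸ N₂)) := bg36_pLengthLE_prod p h₁ h₂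
  have hR : PLengthLE p k ↥f.range := pLengthLE_subgroup p f.range hP
  exact pLengthLE_of_surjective p (MonoidHom.ofInjective hf).symm.toMonoidHom
    (MonoidHom.ofInjective hf).symm.surjective hR

end BG36Aux

end Cfsg.Agent.Helper68
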