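import Mathlib
import Cfsg.Prelude.Def_OddOrderLocal
import Cfsg.Agent.S3745

/-!
# Lemma (a) for B&G 3.6 (S1444)

If `R` acts coprimely on the solvable group `H` and centralizes a Sylow `p`-subgroup `S` of `H`,
then `⁅H, R⁆` lies in an `R`-invariant Hall `p'`-subgroup of `H`; in particular `⁅H, R⁆` is a
`p'`-group.
-/

set_option autoImplicit false

namespace Cfsg.Agent.Helper68

open Subgroup
open scoped commutatorElement

/-- `[K : H] * |H| = |K|` for `H ≤ K`. -/
theorem bg36a_relIndex_mul_card {X : Type*} [Group X] {H K : Subgroup X} (h : H ≤ K) :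
    H.relIndex K * Nat.card ↥H = Nat.card ↥K := by
  have := Subgroup.relIndex_mul_relIndex ⊥ H K bot_le h
  rw [Subgroup.relIndex_bot_left, Subgroup.relIndex_bot_left] at this
  rw [mul_comm]
  exact this

/-- Order bookkeeping: a Hall `p'`-subgroup `T` and a Sylow `p`-subgroup `S` of `H` have
`|T| * |S| = |H|`. -/
theorem bg36a_card_mul {X : Type*} [Group X] [Finite X] (p : ℕ) [hp : Fact p.Prime]
    {H T S : Subgroup X} (hT : Cfsg.IsPiHallOf {q : ℕ | q ≠ p} T H) (hSH : S ≤ H)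
    (hSp : IsPGroup p ↥S) (hSyl : ¬ p ∣ S.relIndex H) :
    Nat.card ↥T * Nat.card ↥S = Nat.card ↥H ∧ (Nat.card ↥T).Coprime (Nat.card ↥S) := by
  obtain ⟨hTH, hT1, hT2⟩ := hT
  have hpT : ¬ p ∣ Nat.card ↥T := fun h => hT1 p hp.out h rfl
  obtain ⟨a, ha⟩ := IsPGroup.iff_card.mp hSp
  have hcopTS : (Nat.card ↥T).Coprime (Nat.card ↥S) := by
    rw [ha]
    exact Nat.Coprime.pow_right _ ((Nat.Prime.coprime_iff_not_dvd hp.out).mpr hpT).symm
  refine ⟨?_, hcopTS⟩
  -- `[H : T]` is a power of `p`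
  have hidxT : ∀ q : ℕ, q.Prime → q ∣ T.relIndex H → q = p := by
    intro q hq hqd
    by_contra hne
    exact hT2 q hq hne hqd
  have hTne : T.relIndex H ≠ 0 := by
    intro h0
    have := bg36a_relIndex_mul_card hTH
    rw [h0, zero_mul] at this
    exact (Nat.card_pos (α := ↥H)).ne' this.symm
  obtain ⟨b, hb⟩ : ∃ b, T.relIndex H = p ^ b := by
    refine ⟨(T.relIndex H).factorization p, ?_⟩
    refine Nat.eq_pow_of_factorization_eq_single hTne ?_
    ext q
    by_cases hq : q = p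
    · subst hq; simp
    · rw [Finsupp.single_apply, if_neg (Ne.symm hq)]
      by_cases hqp : q.Prime
      · exact Nat.factorization_eq_zero_of_not_dvd (fun h => hq (hidxT q hqp h))
      · exact Nat.factorization_eq_zero_of_not_prime _ hqp
  have h1 : T.relIndex H * Nat.card ↥T = Nat.card ↥H := bg36a_relIndex_mul_card hTH
  have h2 : S.relIndex H * Nat.card ↥S = Nat.card ↥H := bg36a_relIndex_mul_card hSH
  rw [hb] at h1
  rw [ha] at h2 ⊢
  -- `p ^ b * |T| = [H:S] * p ^ a`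
  have hcop1 : (p ^ b).Coprime (S.relIndex H) :=
    Nat.Coprime.pow_left _ ((Nat.Prime.coprime_iff_not_dvd hp.out).mpr hSyl)
  have hcop2 : (p ^ a).Coprime (Nat.card ↥T) :=
    Nat.Coprime.pow_left _ ((Nat.Prime.coprime_iff_not_dvd hp.out).mpr hpT)
  have hd1 : p ^ b ∣ p ^ a := by
    have : p ^ b ∣ S.relIndex H * p ^ a := by rw [h2, ← h1]; exact dvd_mul_right _ _
    exact hcop1.dvd_of_dvd_mul_left this
  have hd2 : p ^ a ∣ p ^ b := by
    have : p ^ a ∣ p ^ b * Nat.card ↥T := by rw [h1, ← h2]; exact dvd_mul_left _ _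
    exact hcop2.dvd_of_dvd_mul_right this
  have hab : p ^ a = p ^ b := Nat.dvd_antisymm hd2 hd1
  rw [hab, mul_comm]
  exact h1

/-- Lemma (a), strong form: `⁅H, R⁆` lies in an `R`-invariant Hall `p'`-subgroup of `H`. -/
theorem bg36a_commutator_le_hall {X : Type*} [Group X] [Finite X] (p : ℕ) [hp : Fact p.Prime]
    {H R S : Subgroup X} (hRH : R ≤ normalizer (H : Set X))
    (hsolv : Group.IsSolvable ↥H) (hcop : (Nat.card ↥H).Coprime (Nat.card ↥R)) (hSH : S ≤ H)
    (hSp : IsPGroup p ↥S) (hSyl : ¬ p ∣ S.relIndex H) (hRS : R ≤ centralizer (S : Set X)) :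
    ∃ T : Subgroup X, Cfsg.IsPiHallOf {q : ℕ | q ≠ p} T H ∧ R ≤ normalizer (T : Set X) ∧
      ⁅H, R⁆ ≤ T := by
  obtain ⟨T, hT, hRT⟩ := (Cfsg.Agent.S3745.result R H hRH hcop.symm hsolv {q : ℕ | q ≠ p}).1
  refine ⟨T, hT, hRT, ?_⟩
  obtain ⟨hcard, hcopTS⟩ := bg36a_card_mul p hT hSH hSp hSyl
  have hTH : T ≤ H := hT.1
  -- `T` and `S` are complements inside `H`
  have hcompl : IsComplement' (T.subgroupOf H) (S.subgroupOf H) := by
    apply Subgroup.isComplement'_of_coprime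
    · rw [Nat.card_congr (Subgroup.subgroupOfEquivOfLe hTH).toEquiv,
        Nat.card_congr (Subgroup.subgroupOfEquivOfLe hSH).toEquiv]
      exact hcard
    · rw [Nat.card_congr (Subgroup.subgroupOfEquivOfLe hTH).toEquiv,
        Nat.card_congr (Subgroup.subgroupOfEquivOfLe hSH).toEquiv]
      exact hcopTS
  rw [Subgroup.commutator_le]
  intro h hh r hr
  obtain ⟨⟨⟨t, ht⟩, ⟨s, hs⟩⟩, hts⟩ := hcompl.2 ⟨h, hh⟩
  have hts' : (t : X) * (s : X) = h := by
    have := congrArg Subtype.val hts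
    simpa using this
  have htT : (t : X) ∈ T := ht
  have hsS : (s : X) ∈ S := hs
  have hrs : (s : X) * r = r * (s : X) := by
    have := Subgroup.mem_centralizer_iff.mp (hRS hr) (s : X) hsS
    exact this
  have hrT : r * (t : X)⁻¹ * r⁻¹ ∈ T :=
    (Subgroup.mem_normalizer_iff.mp (hRT hr) _).mp (T.inv_mem htT)
  have hcomm : ⁅h, r⁆ = (t : X) * (r * (t : X)⁻¹ * r⁻¹) := by
    rw [commutatorElement_def, ← hts']
    show (t : X) * (s : X) * r * ((t : X) * (s : X))⁻¹ * r⁻¹ = (t : X) * (r * (t : X)⁻¹ * r⁻¹)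
    have : (t : X) * (s : X) * r * ((t : X) * (s : X))⁻¹ = (t : X) * r * (t : X)⁻¹ := by
      rw [mul_assoc (t : X), hrs]
      group
    rw [this]
    group
  rw [hcomm]
  exact T.mul_mem htT hrT

/-- Lemma (a): if `R` acts coprimely on the solvable group `H`, normalizes it, and centralizes a
Sylow `p`-subgroup `S` of `H`, then `⁅H, R⁆` is a `p'`-group. -/
theorem bg36a_comm_coprime_of_centralizes' {X : Type*} [Group X] [Finite X] (p : ℕ)
    [hp : Fact p.Prime] {H R S : Subgroup X} (hRH : R ≤ normalizer (H : Set X))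
    (hsolv : Group.IsSolvable ↥H) (hcop : (Nat.card ↥H).Coprime (Nat.card ↥R)) (hSH : S ≤ H)
    (hSp : IsPGroup p ↥S) (hSyl : ¬ p ∣ S.relIndex H) (hRS : R ≤ centralizer (S : Set X)) :
    (Nat.card ↥⁅H, R⁆).Coprime p := by
  obtain ⟨T, hT, -, hle⟩ := bg36a_commutator_le_hall p hRH hsolv hcop hSH hSp hSyl hRS
  have hpT : ¬ p ∣ Nat.card ↥T := fun h => hT.2.1 p hp.out h rfl
  have hpc : ¬ p ∣ Nat.card ↥⁅H, R⁆ := fun h => hpT (h.trans (Subgroup.card_dvd_of_le hle))
  exact ((Nat.Prime.coprime_iff_not_dvd hp.out).mpr hpc).symm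

/-- Lemma (a) for a normal subgroup `H` (the form announced to the S1444 seats). -/
theorem bg36_comm_coprime_of_centralizes {X : Type*} [Group X] [Finite X] (p : ℕ)
    [Fact p.Prime] {H R S : Subgroup X} [H.Normal]
    (hsolv : Group.IsSolvable ↥H) (hcop : (Nat.card ↥H).Coprime (Nat.card ↥R)) (hSH : S ≤ H)
    (hSp : IsPGroup p ↥S) (hSyl : ¬ p ∣ S.relIndex H) (hRS : R ≤ centralizer (S : Set X)) :
    (Nat.card ↥⁅H, R⁆).Coprime p := by
  have hRH : R ≤ normalizer (H : Set X) := by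
    rw [Subgroup.normalizer_eq_top]
    exact le_top
  exact bg36a_comm_coprime_of_centralizes' p hRH hsolv hcop hSH hSp hSyl hRS

end Cfsg.Agent.Helper68
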