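import Mathlib
import Cfsg.Agent.Helper62.BG36Def
import Cfsg.Agent.Helper62.FitAct
import Cfsg.Agent.Helper63.PLength
import Cfsg.Agent.Helper35.Coprime

/-!
# (D1) of the S1444 call: transport of the hypotheses of B&G 3.6 to quotients and subgroups
-/

set_option autoImplicit false

namespace Cfsg.Agent.Helper68

open Subgroup Cfsg.Agent.Helper62.BG36

universe u

variable {G : Type u} [Group G] [Finite G]

/-- An element of prime order of `R` is not in `H` when `|H|` and `|R|` are coprime. -/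
theorem bg36d1_not_mem {H R : Subgroup G} {x : G}
    (hcop : (Nat.card H).Coprime (Nat.card R)) (hxR : x ∈ R) (hx : (orderOf x).Prime) :
    x ∉ H := by
  intro hxH
  have h1 : orderOf x ∣ Nat.card H := by
    have := orderOf_dvd_natCard (⟨x, hxH⟩ : ↥H)
    rwa [Subgroup.orderOf_mk] at this
  have h2 : orderOf x ∣ Nat.card R := by
    have := orderOf_dvd_natCard (⟨x, hxR⟩ : ↥R)
    rwa [Subgroup.orderOf_mk] at this
  have h3 : orderOf x ∣ 1 := by
    have := Nat.dvd_gcd h1 h2
    rwa [Nat.Coprime.gcd_eq_one hcop] at this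
  exact hx.one_lt.ne' (Nat.dvd_one.mp h3)

/-- `zpowers x` is solvable. -/
theorem bg36d1_zpowers_solvable (x : G) : Group.IsSolvable ↥(zpowers x) := by
  apply Group.isSolvable_of_comm
  intro a b
  obtain ⟨a, ha⟩ := a
  obtain ⟨b, hb⟩ := b
  apply Subtype.ext
  obtain ⟨i, rfl⟩ := Subgroup.mem_zpowers_iff.mp ha
  obtain ⟨j, rfl⟩ := Subgroup.mem_zpowers_iff.mp hb
  show x ^ i * x ^ j = x ^ j * x ^ i
  rw [← zpow_add, ← zpow_add, add_comm]

/-- (Quot) Transport of the hypotheses of B&G 3.6 to the quotient by a normal subgroup `N ≤ H`. -/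
theorem bg36_main_quot (p : ℕ) [Fact p.Prime] {H R : Subgroup G} {x : G}
    [H.Normal] (hcop : (Nat.card H).Coprime (Nat.card R)) (hxR : x ∈ R) (hx : (orderOf x).Prime)
    (hZ : IsZGroup ↥(H ⊓ centralizer ({x} : Set G)))
    (N : Subgroup G) [N.Normal] (hNH : N ≤ H) (hmain : Main p (G ⧸ N)) :
    Cfsg.PLengthLE p 1 ↥((⁅H, R⁆ : Subgroup G).map (QuotientGroup.mk' N)) := by
  have hπs : Function.Surjective (QuotientGroup.mk' N) := QuotientGroup.mk'_surjective N
  have hxH : x ∉ H := bg36d1_not_mem hcop hxR hx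
  have hxN : x ∉ N := fun h => hxH (hNH h)
  have hHn : (H.map (QuotientGroup.mk' N)).Normal :=
    Subgroup.Normal.map inferInstance (QuotientGroup.mk' N) hπs
  have hc : (Nat.card ↥(H.map (QuotientGroup.mk' N))).Coprime
      (Nat.card ↥(R.map (QuotientGroup.mk' N))) :=
    Nat.Coprime.coprime_dvd_left (Subgroup.card_map_dvd _ _)
      (Nat.Coprime.coprime_dvd_right (Subgroup.card_map_dvd _ _) hcop)
  have hord : (orderOf (QuotientGroup.mk' N x)).Prime := by
    have hdvd : orderOf (QuotientGroup.mk' N x) ∣ orderOf x := orderOf_map_dvd _ x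
    rcases (Nat.dvd_prime hx).mp hdvd with h1 | h1
    · exfalso
      rw [orderOf_eq_one_iff] at h1
      exact hxN ((QuotientGroup.eq_one_iff x).mp h1)
    · rw [h1]; exact hx
  have hZ' : IsZGroup ↥(H.map (QuotientGroup.mk' N) ⊓
      centralizer ({QuotientGroup.mk' N x} : Set (G ⧸ N))) := by
    have hmaps : ∀ y : ↥(H ⊓ centralizer ({x} : Set G)),
        ((QuotientGroup.mk' N).comp (H ⊓ centralizer ({x} : Set G)).subtype) y ∈
          H.map (QuotientGroup.mk' N) ⊓ centralizer ({QuotientGroup.mk' N x} : Set (G ⧸ N)) := by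
      rintro ⟨y, hyH, hyC⟩
      refine ⟨Subgroup.mem_map_of_mem _ hyH, ?_⟩
      refine Subgroup.mem_centralizer_singleton_iff.mpr ?_
      have h1 : y * x = x * y := Subgroup.mem_centralizer_singleton_iff.mp hyC
      show QuotientGroup.mk' N y * QuotientGroup.mk' N x =
        QuotientGroup.mk' N x * QuotientGroup.mk' N y
      rw [← map_mul, ← map_mul, h1]
    have hf : Function.Surjective
        (((QuotientGroup.mk' N).comp (H ⊓ centralizer ({x} : Set G)).subtype).codRestrict _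
          hmaps) := by
      rintro ⟨ybar, hyH, hyC⟩
      obtain ⟨h, hh, rfl⟩ := hyH
      have hcomm : QuotientGroup.mk' N h * QuotientGroup.mk' N x =
          QuotientGroup.mk' N x * QuotientGroup.mk' N h :=
        Subgroup.mem_centralizer_singleton_iff.mp hyC
      have hAN : zpowers x ≤ normalizer (N : Set G) := by
        rw [Subgroup.normalizer_eq_top]; exact le_top
      have hcopAN : (Nat.card ↥(zpowers x)).Coprime (Nat.card ↥N) := by
        have h1 : Nat.card ↥(zpowers x) ∣ Nat.card ↥R :=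
          Subgroup.card_dvd_of_le ((Subgroup.zpowers_le).mpr hxR)
        have h2 : Nat.card ↥N ∣ Nat.card ↥H := Subgroup.card_dvd_of_le hNH
        exact (Nat.Coprime.coprime_dvd_left h2 (Nat.Coprime.coprime_dvd_right h1 hcop)).symm
      obtain ⟨c, hc, hcN⟩ := Cfsg.Agent.Helper35.exists_fixed_in_coset hAN hcopAN
        (Or.inl (bg36d1_zpowers_solvable x)) h (by
          intro a ha
          obtain ⟨k, rfl⟩ := Subgroup.mem_zpowers_iff.mp ha
          rw [← QuotientGroup.eq_one_iff]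
          have hck : Commute (QuotientGroup.mk' N h) ((QuotientGroup.mk' N x) ^ k) :=
            (show Commute (QuotientGroup.mk' N h) (QuotientGroup.mk' N x) from hcomm).zpow_right k
          have e : ((h⁻¹ * x ^ k * h * (x ^ k)⁻¹ : G) : G ⧸ N) =
              (QuotientGroup.mk' N h)⁻¹ * (QuotientGroup.mk' N x) ^ k * QuotientGroup.mk' N h *
                ((QuotientGroup.mk' N x) ^ k)⁻¹ := by
            simp
          rw [e, mul_assoc ((QuotientGroup.mk' N h)⁻¹), ← hck.eq]
          group)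
      have hcx : c * x = x * c := by
        have := Subgroup.mem_centralizer_iff.mp hc x (Subgroup.mem_zpowers x)
        exact this.symm
      have hcH : c ∈ H := by
        have : c = h * (h⁻¹ * c) := by group
        rw [this]
        exact H.mul_mem hh (hNH hcN)
      have hπc : QuotientGroup.mk' N c = QuotientGroup.mk' N h := by
        have h1 : QuotientGroup.mk' N (h⁻¹ * c) = 1 := (QuotientGroup.eq_one_iff _).mpr hcN
        rw [map_mul, map_inv] at h1
        exact (inv_mul_eq_one.mp h1).symm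
      refine ⟨⟨c, hcH, Subgroup.mem_centralizer_singleton_iff.mpr hcx⟩, ?_⟩
      apply Subtype.ext
      exact hπc
    haveI := hZ
    exact IsZGroup.of_surjective hf
  have key := hmain (H.map (QuotientGroup.mk' N)) (R.map (QuotientGroup.mk' N))
    (QuotientGroup.mk' N x) hHn hc (Subgroup.mem_map_of_mem _ hxR) hord hZ'
  rw [Subgroup.map_commutator]
  exact key

/-- (Sub) Transport of the hypotheses of B&G 3.6 to a subgroup `X R'` with `X ≤ H` normalized by
`R' ≤ R`, `x ∈ R'`. -/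
theorem bg36_main_sub (p : ℕ) [Fact p.Prime] {H R : Subgroup G} {x : G}
    (hcop : (Nat.card H).Coprime (Nat.card R)) (hxR : x ∈ R) (hx : (orderOf x).Prime)
    (hZ : IsZGroup ↥(H ⊓ centralizer ({x} : Set G)))
    {X R' : Subgroup G} (hXH : X ≤ H) (hR'R : R' ≤ R) (hxR' : x ∈ R')
    (hnorm : R' ≤ normalizer (X : Set G)) (hmain : Main p ↥(X ⊔ R')) :
    Cfsg.PLengthLE p 1 ↥(⁅X, R'⁆ : Subgroup G) := by
  have hXK : X ≤ X ⊔ R' := le_sup_left
  have hRK : R' ≤ X ⊔ R' := le_sup_right
  have hKn : X ⊔ R' ≤ normalizer (X : Set G) := sup_le le_normalizer hnorm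
  have hXn : (X.subgroupOf (X ⊔ R')).Normal := Subgroup.normal_subgroupOf_of_le_normalizer hKn
  have hc : (Nat.card ↥(X.subgroupOf (X ⊔ R'))).Coprime (Nat.card ↥(R'.subgroupOf (X ⊔ R'))) := by
    rw [Nat.card_congr (Subgroup.subgroupOfEquivOfLe hXK).toEquiv,
      Nat.card_congr (Subgroup.subgroupOfEquivOfLe hRK).toEquiv]
    exact Nat.Coprime.coprime_dvd_left (Subgroup.card_dvd_of_le hXH)
      (Nat.Coprime.coprime_dvd_right (Subgroup.card_dvd_of_le hR'R) hcop)
  have hx'R : (⟨x, hRK hxR'⟩ : ↥(X ⊔ R')) ∈ R'.subgroupOf (X ⊔ R') := by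
    rw [Subgroup.mem_subgroupOf]; exact hxR'
  have hord : (orderOf (⟨x, hRK hxR'⟩ : ↥(X ⊔ R'))).Prime := by
    rw [Subgroup.orderOf_mk]; exact hx
  have hZ' : IsZGroup ↥(X.subgroupOf (X ⊔ R') ⊓
      centralizer ({(⟨x, hRK hxR'⟩ : ↥(X ⊔ R'))} : Set ↥(X ⊔ R'))) := by
    have hmaps : ∀ y : ↥(X.subgroupOf (X ⊔ R') ⊓
        centralizer ({(⟨x, hRK hxR'⟩ : ↥(X ⊔ R'))} : Set ↥(X ⊔ R'))),
        ((X ⊔ R').subtype.comp (X.subgroupOf (X ⊔ R') ⊓
          centralizer ({(⟨x, hRK hxR'⟩ : ↥(X ⊔ R'))} : Set ↥(X ⊔ R'))).subtype) y ∈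
          H ⊓ centralizer ({x} : Set G) := by
      rintro ⟨y, hy1, hy2⟩
      refine ⟨hXH (Subgroup.mem_subgroupOf.mp hy1), ?_⟩
      refine Subgroup.mem_centralizer_singleton_iff.mpr ?_
      have h1 := Subgroup.mem_centralizer_singleton_iff.mp hy2
      have h2 := congrArg Subtype.val h1
      simpa using h2
    have hf : Function.Injective
        (((X ⊔ R').subtype.comp (X.subgroupOf (X ⊔ R') ⊓
          centralizer ({(⟨x, hRK hxR'⟩ : ↥(X ⊔ R'))} : Set ↥(X ⊔ R'))).subtype).codRestrict _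
          hmaps) := by
      intro a b hab
      have h1 := congrArg Subtype.val hab
      exact Subtype.ext (Subtype.ext h1)
    haveI := hZ
    exact IsZGroup.of_injective hf
  have key := hmain (X.subgroupOf (X ⊔ R')) (R'.subgroupOf (X ⊔ R')) ⟨x, hRK hxR'⟩ hXn hc hx'R
    hord hZ'
  have hmap : (⁅X.subgroupOf (X ⊔ R'), R'.subgroupOf (X ⊔ R')⁆ : Subgroup ↥(X ⊔ R')).map
      (X ⊔ R').subtype = ⁅X, R'⁆ := by
    rw [Subgroup.map_commutator, Subgroup.map_subgroupOf_eq_of_le hXK,
      Subgroup.map_subgroupOf_eq_of_le hRK]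
  have e : ↥(⁅X.subgroupOf (X ⊔ R'), R'.subgroupOf (X ⊔ R')⁆ : Subgroup ↥(X ⊔ R')) ≃*
      ↥(⁅X, R'⁆ : Subgroup G) :=
    (Subgroup.equivMapOfInjective _ (X ⊔ R').subtype (X ⊔ R').subtype_injective).trans
      (MulEquiv.subgroupCongr hmap)
  exact Cfsg.Agent.Helper63.PLen.pLengthLE_of_surjective p e.toMonoidHom e.surjective key

end Cfsg.Agent.Helper68
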