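import Mathlib
import Cfsg.Agent.Helper62.BG36Red1
import Cfsg.Agent.Helper68.BG36D1
import Cfsg.Agent.Helper35.HallCoprime

/-!
# (E1), (E2) of the S1444 call: the induction frame and the literal statement of B&G 3.6
-/

set_option autoImplicit false
set_option linter.style.haveILetI false

namespace Cfsg.Agent.Helper68

open Subgroup Cfsg.Agent.Helper62.BG36

universe u

/-- Two subgroups of coprime orders meet trivially. -/
theorem bg36e_inf_eq_bot {G : Type u} [Group G] [Finite G] {A B : Subgroup G}
    (h : (Nat.card A).Coprime (Nat.card B)) : A ⊓ B = ⊥ := by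
  rw [← Subgroup.card_eq_one]
  have h1 : Nat.card ↥(A ⊓ B) ∣ Nat.card A := Subgroup.card_dvd_of_le inf_le_left
  have h2 : Nat.card ↥(A ⊓ B) ∣ Nat.card B := Subgroup.card_dvd_of_le inf_le_right
  have h3 := Nat.dvd_gcd h1 h2
  rw [Nat.Coprime.gcd_eq_one h] at h3
  exact Nat.dvd_one.mp h3

/-- A proper subgroup has smaller order. -/
theorem bg36e_card_lt {G : Type u} [Group G] [Finite G] {A B : Subgroup G} (hAB : A ≤ B)
    (hne : A ≠ B) : Nat.card A < Nat.card B := by
  rcases Nat.lt_or_ge (Nat.card A) (Nat.card B) with h | h
  · exact h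
  · exact absurd (Subgroup.eq_of_le_of_card_ge hAB h) hne

/-- (E1) induction frame: if no group has a minimal counterexample `MC`, then BG 3.6 (`Main`)
holds for every finite solvable group of odd order. -/
theorem bg36_main_of_no_mc (p : ℕ) [Fact p.Prime]
    (hno : ∀ (G : Type u) [Group G] [Finite G] [Group.IsSolvable G], Odd (Nat.card G) →
      ∀ (H R : Subgroup G) (x : G), ¬ MC p H R x) :
    ∀ (G : Type u) [Group G] [Finite G] [Group.IsSolvable G], Odd (Nat.card G) → Main p G := by
  have key : ∀ n : ℕ, ∀ (G : Type u) [Group G] [Finite G] [Group.IsSolvable G],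
      Nat.card G = n → Odd (Nat.card G) → Main p G := by
    intro n
    induction n using Nat.strong_induction_on with
    | _ n ih =>
      intro G _ _ _ hn hodd H R x hHn hcop hxR hx hZ
      by_contra hnpl
      -- the induction hypothesis for subgroups
      have ihsub : ∀ K : Subgroup G, K ≠ ⊤ → Main p ↥K := by
        intro K hK
        have hlt : Nat.card ↥K < n := by
          rw [← hn, ← Subgroup.card_top (G := G)]
          exact bg36e_card_lt le_top hK
        have hoddK : Odd (Nat.card ↥K) := by
          obtain ⟨c, hc⟩ := Subgroup.card_subgroup_dvd_card K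
          rw [hc] at hodd
          exact (Nat.odd_mul.mp hodd).1
        exact ih (Nat.card ↥K) hlt ↥K rfl hoddK
      -- `H R = G`
      have htop : H ⊔ R = ⊤ := by
        by_contra hne
        have hRn : R ≤ normalizer (H : Set G) := by
          rw [normalizer_eq_top]; exact le_top
        exact hnpl (bg36_main_sub p hcop hxR hx hZ le_rfl le_rfl hxR hRn (ihsub _ hne))
      have hHR : H ⊓ R = ⊥ := bg36e_inf_eq_bot hcop
      have hcardG : Nat.card G = Nat.card H * Nat.card R := by
        have hRn : R ≤ normalizer (H : Set G) := by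
          rw [normalizer_eq_top]; exact le_top
        rw [← Cfsg.Agent.Helper35.card_sup_of_le_normalizer hRn hHR, htop, Subgroup.card_top]
      have mc : MC p H R x := by
        refine ⟨hHn, hcop, hxR, hx, hZ, ?_, ?_, hnpl⟩
        · intro X R' hXH hR'R hxR' hnorm hne
          refine bg36_main_sub p hcop hxR hx hZ hXH hR'R hxR' hnorm (ihsub _ ?_)
          intro htop'
          have hXR : X ⊓ R' = ⊥ := by
            rw [eq_bot_iff, ← hHR]
            exact inf_le_inf hXH hR'R
          have hc1 : Nat.card G = Nat.card X * Nat.card R' := by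
            rw [← Cfsg.Agent.Helper35.card_sup_of_le_normalizer hnorm hXR, htop',
              Subgroup.card_top]
          have hX0 : 0 < Nat.card X := Nat.card_pos
          have hR0 : 0 < Nat.card R' := Nat.card_pos
          have hXle : Nat.card X ≤ Nat.card H := Subgroup.card_le_of_le hXH
          have hRle : Nat.card R' ≤ Nat.card R := Subgroup.card_le_of_le hR'R
          have hlt : Nat.card X * Nat.card R' < Nat.card H * Nat.card R := by
            rcases hne with h | h
            · have h1 := bg36e_card_lt hXH h
              nlinarith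
            · have h1 := bg36e_card_lt hR'R h
              nlinarith
          omega
        · intro N _ hNH hNbot
          refine bg36_main_quot p hcop hxR hx hZ N hNH ?_
          have hc1 : Nat.card G = Nat.card (G ⧸ N) * Nat.card N :=
            Subgroup.card_eq_card_quotient_mul_card_subgroup N
          have hN1 : 1 < Nat.card N := by
            have h0 : 0 < Nat.card N := Nat.card_pos
            have h1 : Nat.card N ≠ 1 := fun h => hNbot (Subgroup.card_eq_one.mp h)
            omega
          have hQ0 : 0 < Nat.card (G ⧸ N) := Nat.card_pos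
          have hlt : Nat.card (G ⧸ N) < n := by
            rw [← hn, hc1]
            nlinarith
          have hoddQ : Odd (Nat.card (G ⧸ N)) := by
            rw [hc1] at hodd
            exact (Nat.odd_mul.mp hodd).1
          exact ih (Nat.card (G ⧸ N)) hlt (G ⧸ N) rfl hoddQ
      exact hno G hodd H R x mc
  intro G _ _ _ hodd
  exact key (Nat.card G) G rfl hodd

/-- (E2) from `Main` to the literal statement of S1444. -/
theorem bg36_result_of_main {G : Type u} [Group G] [Finite G] (p : ℕ) [Fact p.Prime]
    (hmain : Main p G) (H R R₀ : Subgroup G) [H.Normal] (hHall : (Nat.card H).Coprime H.index)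
    (hR : Subgroup.IsComplement' H R) (hR₀ : R₀ ≤ R) (hR₀p : (Nat.card R₀).Prime)
    (hZ : IsZGroup ↥(H ⊓ Subgroup.centralizer (R₀ : Set G))) :
    Cfsg.PLengthLE p 1 ↥(⁅H, R⁆ : Subgroup G) := by
  haveI : Fact (Nat.card R₀).Prime := ⟨hR₀p⟩
  haveI : IsCyclic ↥R₀ := isCyclic_of_prime_card rfl
  obtain ⟨⟨x, hxR₀⟩, hgen⟩ := IsCyclic.exists_generator (α := ↥R₀)
  have hord : orderOf x = Nat.card R₀ := by
    have h1 := orderOf_eq_card_of_forall_mem_zpowers hgen
    rwa [Subgroup.orderOf_mk] at h1
  have hcop : (Nat.card H).Coprime (Nat.card R) := by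
    have h1 : H.index = Nat.card R := hR.symm.index_eq_card
    rwa [h1] at hHall
  have hZ' : IsZGroup ↥(H ⊓ centralizer ({x} : Set G)) := by
    have hle : H ⊓ centralizer ({x} : Set G) ≤ H ⊓ centralizer (R₀ : Set G) := by
      intro c hc
      have hcH : c ∈ H := hc.1
      have hcx : c ∈ centralizer ({x} : Set G) := hc.2
      refine ⟨hcH, ?_⟩
      refine Subgroup.mem_centralizer_iff.mpr ?_
      intro y hy
      have hy' := hgen ⟨y, hy⟩
      obtain ⟨k, hk⟩ := Subgroup.mem_zpowers_iff.mp hy'
      have hyk : y = x ^ k := by
        have := congrArg Subtype.val hk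
        simpa using this.symm
      have hcomm : Commute c x := Subgroup.mem_centralizer_singleton_iff.mp hcx
      rw [hyk]
      exact ((hcomm.zpow_right k).eq).symm
    haveI := hZ
    exact IsZGroup.of_injective (f := Subgroup.inclusion hle) (Subgroup.inclusion_injective hle)
  exact hmain H R x inferInstance hcop (hR₀ hxR₀) (by rw [hord]; exact hR₀p) hZ'

end Cfsg.Agent.Helper68
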