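/-
helper68: a pure lemma for B&G 14.4/15.9 (rows S1436, S1376).  In a finite group let `X ≤ M` be
normalized by `M` and have a normal `p`-complement, and let `S ≤ M` be nilpotent and normalized
by `M`.  Then every element of `X` of order prime to `p` commutes with every element of `S` of
order dividing `p`.
-/
import Mathlib
import Cfsg.Prelude.Def_Transfer

set_option autoImplicit false

namespace Cfsg.Agent.Helper68

open Cfsg Subgroup

universe u

/-- If `g ^ m ∈ H` with `m` prime to the order of `g`, then `g ∈ H`. -/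
theorem bg36h_mem_of_pow_mem {Γ : Type u} [Group Γ] {H : Subgroup Γ} {g : Γ} {m : ℕ}
    (h : g ^ m ∈ H) (hcop : Nat.Coprime m (orderOf g)) : g ∈ H := by
  obtain ⟨j, hj⟩ := exists_pow_eq_self_of_coprime hcop
  rw [← hj]
  exact H.pow_mem h j

theorem bg36h_comm {Γ : Type u} [Group Γ] [Finite Γ] {p : ℕ} [hp : Fact p.Prime]
    {M X S : Subgroup Γ} (hXM : X ≤ M) (hXn : ∀ m ∈ M, ∀ g ∈ X, m * g * m⁻¹ ∈ X)
    (hcompl : HasNormalPComplement p ↥X)
    (hSM : S ≤ M) (hSn : ∀ m ∈ M, ∀ g ∈ S, m * g * m⁻¹ ∈ S) (hSnil : Group.IsNilpotent ↥S)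
    {c y : Γ} (hc : c ∈ X) (hcp : ¬ p ∣ orderOf c) (hy : y ∈ S) (hyp : y ^ p = 1) :
    c * y = y * c := by
  classical
  obtain ⟨P, N₀, hN₀, hcmp⟩ := hcompl
  haveI := hN₀
  have hidx : N₀.index = Nat.card (P : Subgroup ↥X) := hcmp.symm.index_eq_card
  have hidx2 : (P : Subgroup ↥X).index = Nat.card N₀ := hcmp.index_eq_card
  have hpN₀ : ¬ p ∣ Nat.card N₀ := by
    rw [← hidx2]
    exact P.not_dvd_index
  obtain ⟨n, hn⟩ := IsPGroup.iff_card.mp P.2
  -- elements of `X` of order prime to `p` lie in `N₀`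
  have h1 : ∀ g : ↥X, ¬ p ∣ orderOf g → g ∈ N₀ := by
    intro g hg
    have hpow : g ^ N₀.index ∈ N₀ := Subgroup.pow_index_mem N₀ g
    refine bg36h_mem_of_pow_mem hpow ?_
    rw [hidx, hn]
    exact Nat.Coprime.pow_left n ((Nat.Prime.coprime_iff_not_dvd hp.1).mpr hg)
  have h1' : ∀ g ∈ X, ¬ p ∣ orderOf g → g ∈ N₀.map X.subtype := by
    intro g hg hgo
    refine ⟨⟨g, hg⟩, h1 ⟨g, hg⟩ ?_, rfl⟩
    rw [← Subgroup.orderOf_coe]
    exact hgo
  have hTcard : Nat.card ↥(N₀.map X.subtype) = Nat.card N₀ :=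
    Subgroup.card_map_of_injective X.subtype_injective
  have h2 : ∀ t ∈ N₀.map X.subtype, ¬ p ∣ orderOf t := by
    intro t ht hdvd
    apply hpN₀
    rw [← hTcard]
    exact hdvd.trans (Subgroup.orderOf_dvd_natCard _ ht)
  have hconj : ∀ m g : Γ, orderOf (m * g * m⁻¹) = orderOf g := by
    intro m g
    have := (MulAut.conj m).orderOf_eq g
    rwa [MulAut.conj_apply] at this
  have hTX : N₀.map X.subtype ≤ X := Subgroup.map_subtype_le _
  have h3 : ∀ m ∈ M, ∀ t ∈ N₀.map X.subtype, m * t * m⁻¹ ∈ N₀.map X.subtype := by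
    intro m hm t ht
    refine h1' _ (hXn m hm t (hTX ht)) ?_
    rw [hconj]
    exact h2 t ht
  -- the Sylow `p`-subgroup of `S`
  haveI := hSnil
  obtain ⟨Q⟩ : Nonempty (Sylow p ↥S) := inferInstance
  haveI hQn : (Q : Subgroup ↥S).Normal :=
    Sylow.normal_of_normalizerCondition Group.normalizerCondition_of_isNilpotent Q
  have h4 : ∀ g : ↥S, (∃ k, orderOf g = p ^ k) → g ∈ (Q : Subgroup ↥S) := by
    rintro g ⟨k, hk⟩
    have hpow : g ^ (Q : Subgroup ↥S).index ∈ (Q : Subgroup ↥S) := Subgroup.pow_index_mem _ g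
    refine bg36h_mem_of_pow_mem hpow ?_
    rw [hk]
    exact Nat.Coprime.pow_right k ((Nat.Prime.coprime_iff_not_dvd hp.1).mpr Q.not_dvd_index).symm
  have h4' : ∀ g ∈ S, (∃ k, orderOf g = p ^ k) → g ∈ (Q : Subgroup ↥S).map S.subtype := by
    rintro g hg ⟨k, hk⟩
    refine ⟨⟨g, hg⟩, h4 ⟨g, hg⟩ ⟨k, ?_⟩, rfl⟩
    rw [← Subgroup.orderOf_coe]
    exact hk
  have h5 : ∀ g ∈ (Q : Subgroup ↥S).map S.subtype, ∃ k, orderOf g = p ^ k := by
    rintro _ ⟨g, hg, rfl⟩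
    obtain ⟨k, hk⟩ := Q.2 ⟨g, hg⟩
    have hk' : g ^ p ^ k = 1 := by
      have := congrArg Subtype.val hk
      simpa using this
    have hdvd : orderOf g ∣ p ^ k := orderOf_dvd_of_pow_eq_one hk'
    obtain ⟨j, -, hj⟩ := (Nat.dvd_prime_pow hp.1).mp hdvd
    exact ⟨j, by rw [Subgroup.subtype_apply, Subgroup.orderOf_coe]; exact hj⟩
  have hQS : (Q : Subgroup ↥S).map S.subtype ≤ S := Subgroup.map_subtype_le _
  have h6 : ∀ m ∈ M, ∀ g ∈ (Q : Subgroup ↥S).map S.subtype,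
      m * g * m⁻¹ ∈ (Q : Subgroup ↥S).map S.subtype := by
    intro m hm g hg
    refine h4' _ (hSn m hm g (hQS hg)) ?_
    rw [hconj]
    exact h5 g hg
  have hyQ : y ∈ (Q : Subgroup ↥S).map S.subtype := by
    refine h4' y hy ?_
    have hdvd : orderOf y ∣ p := orderOf_dvd_of_pow_eq_one hyp
    rcases (Nat.dvd_prime hp.1).mp hdvd with h | h
    · exact ⟨0, by rw [h, pow_zero]⟩
    · exact ⟨1, by rw [h, pow_one]⟩
  have hcT : c ∈ N₀.map X.subtype := h1' c hc hcp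
  have hcM : c ∈ M := hXM hc
  have hyM : y ∈ M := hSM hy
  -- the commutator lies in both
  have hdT : c * y * c⁻¹ * y⁻¹ ∈ N₀.map X.subtype := by
    have e : c * y * c⁻¹ * y⁻¹ = c * (y * c⁻¹ * y⁻¹) := by group
    rw [e]
    exact Subgroup.mul_mem _ hcT (h3 y hyM _ (Subgroup.inv_mem _ hcT))
  have hdQ : c * y * c⁻¹ * y⁻¹ ∈ (Q : Subgroup ↥S).map S.subtype :=
    Subgroup.mul_mem _ (h6 c hcM y hyQ) (Subgroup.inv_mem _ hyQ)
  obtain ⟨k, hk⟩ := h5 _ hdQ
  have hnd := h2 _ hdT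
  have hk0 : k = 0 := by
    by_contra hk0
    apply hnd
    rw [hk]
    exact dvd_pow_self p hk0
  rw [hk0, pow_zero, orderOf_eq_one_iff] at hk
  have e : c * y = (c * y * c⁻¹ * y⁻¹) * (y * c) := by group
  rw [e, hk, one_mul]

end Cfsg.Agent.Helper68
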