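/-
helper68: pure pieces CM, CN, C2D, WN, R of CALL S1363.
-/
import Cfsg.Agent.Helper68.BG63Defs
import Cfsg.Prelude

set_option autoImplicit false

namespace Cfsg.Agent.Helper68

open Cfsg Subgroup

universe u

variable {G : Type u} [Group G] [Finite G]

omit [Finite G] in
/-- CM (pure). Membership in `bg63C π U` for abelian `U`. -/
theorem bg63_C_mem {U : Subgroup G} (hUc : IsMulCommutative U) (π : Set ℕ) (u : G) :
    u ∈ bg63C π U ↔ u ∈ U ∧ ∀ q : ℕ, q.Prime → q ∣ orderOf u → q ∉ π := by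
  constructor
  · intro hu
    refine Subgroup.closure_induction
      (p := fun x _ => x ∈ U ∧ ∀ q : ℕ, q.Prime → q ∣ orderOf x → q ∉ π) ?_ ?_ ?_ ?_ hu
    · intro x hx
      exact hx
    · refine ⟨U.one_mem, ?_⟩
      intro q hq hd
      rw [orderOf_one] at hd
      exact absurd (Nat.dvd_one.mp hd) hq.ne_one
    · intro x y _ _ hx hy
      refine ⟨U.mul_mem hx.1 hy.1, ?_⟩
      intro q hq hd
      have hc : Commute x y := by
        have := hUc.is_comm.comm (⟨x, hx.1⟩ : U) ⟨y, hy.1⟩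
        exact congrArg Subtype.val this
      have h2 : q ∣ orderOf x * orderOf y :=
        (hd.trans hc.orderOf_mul_dvd_lcm).trans (Nat.lcm_dvd_mul _ _)
      rcases (Nat.Prime.dvd_mul hq).mp h2 with h | h
      · exact hx.2 q hq h
      · exact hy.2 q hq h
    · intro x _ hx
      refine ⟨U.inv_mem hx.1, ?_⟩
      rw [orderOf_inv]
      exact hx.2
  · rintro ⟨hu, h⟩
    exact bg63C_mem_of π hu h

omit [Finite G] in
/-- CN (pure). `bg63C π U` is normalized by `N_G(U)`. -/
theorem bg63_C_norm {U : Subgroup G} (π : Set ℕ) {g : G} (hg : g ∈ normalizer (U : Set G)) :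
    g ∈ normalizer (bg63C π U : Set G) := by
  have key : ∀ g : G, g ∈ normalizer (U : Set G) → ∀ x ∈ bg63C π U,
      g * x * g⁻¹ ∈ bg63C π U := by
    intro g hg x hx
    refine Subgroup.closure_induction (p := fun x _ => g * x * g⁻¹ ∈ bg63C π U) ?_ ?_ ?_ ?_ hx
    · intro x hx
      apply bg63C_mem_of π ((mem_normalizer_iff.mp hg x).mp hx.1)
      intro q hq hd
      have h1 : orderOf (g * x * g⁻¹) = orderOf x := by
        have := orderOf_injective (MulAut.conj g).toMonoidHom (MulEquiv.injective _) x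
        simpa [MulAut.conj_apply] using this
      rw [h1] at hd
      exact hx.2 q hq hd
    · simp [one_mem]
    · intro x y _ _ hx hy
      have h1 : g * (x * y) * g⁻¹ = (g * x * g⁻¹) * (g * y * g⁻¹) := by group
      rw [h1]
      exact mul_mem hx hy
    · intro x _ hx
      have h1 : g * x⁻¹ * g⁻¹ = (g * x * g⁻¹)⁻¹ := by group
      rw [h1]
      exact inv_mem hx
  rw [mem_normalizer_iff]
  intro x
  constructor
  · exact key g hg x
  · intro h
    have h1 := key g⁻¹ (inv_mem hg) _ h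
    have h2 : g⁻¹ * (g * x * g⁻¹) * g⁻¹⁻¹ = x := by group
    rwa [h2] at h1

omit [Finite G] in
/-- C2D (pure). `H = E S` normalizes `U = S C`. -/
theorem bg63_le_norm {H S E U C : Subgroup G} (hE : IsComplIn E S H) (hSU : S ≤ U)
    (hUc : IsMulCommutative U) (hSn : H ≤ normalizer (S : Set G))
    (hdec : ∀ u ∈ U, ∃ a b : G, a ∈ U ∧ a ∈ S ∧ b ∈ C ∧ u = a * b) (hCU : C ≤ U)
    (hconj : ∀ e ∈ E, ∀ u ∈ C, e * u * e⁻¹ ∈ C) : H ≤ normalizer (U : Set G) := by
  have key : ∀ h ∈ H, ∀ u ∈ U, h * u * h⁻¹ ∈ U := by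
    intro h hh u hu
    obtain ⟨e, he, s, hs, rfl⟩ := hE.2.2.2 h hh
    have h1 : s * u * s⁻¹ = u := by
      have := hUc.is_comm.comm (⟨s, hSU hs⟩ : U) ⟨u, hu⟩
      have h2 : s * u = u * s := congrArg Subtype.val this
      rw [h2]
      group
    have h3 : e * s * u * (e * s)⁻¹ = e * (s * u * s⁻¹) * e⁻¹ := by group
    rw [h3, h1]
    obtain ⟨a, b, haU, haS, hb, rfl⟩ := hdec u hu
    have h4 : e * (a * b) * e⁻¹ = (e * a * e⁻¹) * (e * b * e⁻¹) := by group
    rw [h4]
    exact U.mul_mem (hSU ((mem_normalizer_iff.mp (hSn (hE.1 he)) a).mp haS))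
      (hCU (hconj e he b hb))
  intro h hh
  rw [mem_normalizer_iff]
  intro x
  constructor
  · exact key h hh x
  · intro hx
    have h1 := key h⁻¹ (H.inv_mem hh) _ hx
    have h2 : h⁻¹ * (h * x * h⁻¹) * h⁻¹⁻¹ = x := by group
    rwa [h2] at h1

omit [Finite G] in
/-- WN (pure). `E` normalizes `C_{E'}(S)` when it normalizes `S`. -/
theorem bg63_W_norm {E S : Subgroup G} (hES : E ≤ normalizer (S : Set G)) :
    E ≤ normalizer ((⁅E, E⁆ ⊓ centralizer (S : Set G) : Subgroup G) : Set G) := by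
  have hEE : ⁅E, E⁆ ≤ E := Subgroup.commutator_le.mpr fun a ha b hb =>
    E.mul_mem (E.mul_mem (E.mul_mem ha hb) (E.inv_mem ha)) (E.inv_mem hb)
  have key : ∀ e ∈ E, ∀ w ∈ ⁅E, E⁆ ⊓ centralizer (S : Set G),
      e * w * e⁻¹ ∈ ⁅E, E⁆ ⊓ centralizer (S : Set G) := by
    intro e he w hw
    have hw1 : w ∈ ⁅E, E⁆ := (Subgroup.mem_inf.mp hw).1
    have hw2 : w ∈ centralizer (S : Set G) := (Subgroup.mem_inf.mp hw).2
    refine Subgroup.mem_inf.mpr ⟨?_, ?_⟩
    · have h1 : e * w * e⁻¹ = (e * w * e⁻¹ * w⁻¹) * w := by group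
      have hc := Subgroup.commutator_mem_commutator he (hEE hw1)
      rw [commutatorElement_def] at hc
      rw [h1]
      exact mul_mem hc hw1
    · rw [Subgroup.mem_centralizer_iff]
      intro s hs
      have hs' : e⁻¹ * s * e⁻¹⁻¹ ∈ S :=
        (mem_normalizer_iff.mp (hES (E.inv_mem he)) s).mp hs
      have h2 := (Subgroup.mem_centralizer_iff.mp hw2) _ hs'
      have h3 : s * (e * w * e⁻¹) = e * ((e⁻¹ * s * e⁻¹⁻¹) * w) * e⁻¹ := by group
      rw [h3, h2]
      group
  intro e he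
  rw [mem_normalizer_iff]
  intro x
  constructor
  · exact key e he x
  · intro hx
    have h1 := key e⁻¹ (E.inv_mem he) _ hx
    have h2 : e⁻¹ * (e * x * e⁻¹) * e⁻¹⁻¹ = x := by group
    rwa [h2] at h1

/-- R (pure). A Sylow subgroup `R ≠ 1` of the abelian group `U ≠ 1`; it is characteristic. -/
theorem bg63_exists_R {U : Subgroup G} (hUc : IsMulCommutative U) (hU1 : U ≠ ⊥) :
    ∃ (r : ℕ) (R : Subgroup G), r.Prime ∧ R ≤ U ∧ R ≠ ⊥ ∧ IsPGroup r R ∧
      ¬ r ∣ R.relIndex U ∧ ∀ g ∈ normalizer (U : Set G), g ∈ normalizer (R : Set G) := by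
  have hcard : Nat.card U ≠ 1 := fun h => hU1 (Subgroup.card_eq_one.mp h)
  obtain ⟨r, hr, hrd⟩ := Nat.exists_prime_and_dvd hcard
  haveI := Fact.mk hr
  obtain ⟨n, hn⟩ : ∃ n : ℕ, n = (Nat.card U).factorization r := ⟨_, rfl⟩
  have hcomm : ∀ a ∈ U, ∀ b ∈ U, Commute a b := fun a ha b hb => by
    have := hUc.is_comm.comm (⟨a, ha⟩ : U) ⟨b, hb⟩
    exact congrArg Subtype.val this
  let R : Subgroup G :=
    { carrier := {u | u ∈ U ∧ u ^ (r ^ n) = 1}
      mul_mem' := fun {a b} ha hb => ⟨U.mul_mem ha.1 hb.1, by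
        rw [(hcomm a ha.1 b hb.1).mul_pow, ha.2, hb.2, one_mul]⟩
      one_mem' := ⟨U.one_mem, one_pow _⟩
      inv_mem' := fun {a} ha => ⟨U.inv_mem ha.1, by rw [inv_pow, ha.2, inv_one]⟩ }
  have hRmem : ∀ x : G, x ∈ R ↔ x ∈ U ∧ x ^ (r ^ n) = 1 := fun x => Iff.rfl
  have hRU : R ≤ U := fun x hx => hx.1
  obtain ⟨P⟩ : Nonempty (Sylow r U) := inferInstance
  have hPcard : Nat.card P = r ^ n := by rw [hn]; exact P.card_eq_multiplicity
  have hPR : (P : Subgroup U).map U.subtype ≤ R := by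
    rintro _ ⟨x, hx, rfl⟩
    refine ⟨x.2, ?_⟩
    have h1 : (⟨x, hx⟩ : (P : Subgroup U)) ^ (r ^ n) = 1 := by
      rw [← hPcard]; exact pow_card_eq_one'
    have h2 : x ^ (r ^ n) = 1 := by
      have := congrArg Subtype.val h1
      simpa using this
    have h3 := congrArg Subtype.val h2
    simpa using h3
  refine ⟨r, R, hr, hRU, ?_, ?_, ?_, ?_⟩
  · -- `R ≠ ⊥`
    intro hbot
    have hP1 : Nat.card P = 1 := by
      have h1 : (P : Subgroup U).map U.subtype = ⊥ := le_bot_iff.mp (hbot ▸ hPR)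
      have h2 : (P : Subgroup U) = ⊥ := (Subgroup.map_eq_bot_iff_of_injective _
        U.subtype_injective).mp h1
      rw [h2]; exact Subgroup.card_bot
    have hn0 : n ≠ 0 := by
      rw [hn]
      exact (Nat.Prime.factorization_pos_of_dvd hr Nat.card_pos.ne' hrd).ne'
    rw [hPcard] at hP1
    exact hn0 (by
      by_contra h0
      have := Nat.one_lt_pow h0 hr.one_lt
      omega)
  · -- `IsPGroup r R`
    intro x
    refine ⟨n, ?_⟩
    apply Subtype.ext
    simpa using x.2.2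
  · -- index prime to `r`
    intro hd
    have h1 : R.relIndex U ∣ ((P : Subgroup U).map U.subtype).relIndex U :=
      Subgroup.relIndex_dvd_of_le_left U hPR
    have h2 : ((P : Subgroup U).map U.subtype).relIndex U = (P : Subgroup U).index := by
      unfold Subgroup.relIndex
      have : ((P : Subgroup U).map U.subtype).subgroupOf U = (P : Subgroup U) :=
        Subgroup.comap_map_eq_self_of_injective U.subtype_injective _
      rw [this]
    rw [h2] at h1
    exact P.not_dvd_index (hd.trans h1)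
  · -- characteristic
    have key : ∀ g ∈ normalizer (U : Set G), ∀ x ∈ R, g * x * g⁻¹ ∈ R := by
      intro g hg x hx
      refine ⟨(mem_normalizer_iff.mp hg x).mp hx.1, ?_⟩
      rw [conj_pow, hx.2]
      group
    intro g hg
    rw [mem_normalizer_iff]
    intro x
    constructor
    · exact key g hg x
    · intro hx
      have h1 := key g⁻¹ (inv_mem hg) _ hx
      have h2 : g⁻¹ * (g * x * g⁻¹) * g⁻¹⁻¹ = x := by group
      rwa [h2] at h1

end Cfsg.Agent.Helper68
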