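/-
helper68: piece for row S1383 (CALL T5 of helper25), stage "rank(P) ≤ 2".
`t5_rank2_aux`: a non-abelian `p`-group `P` (`p` odd) of `p`-rank at most 2, acted on by a group
`K` of odd order prime to `p` with `[P, K] = P`, such that `C_P(k) ≤ Ks` for `k ≠ 1` in `K`,
`1 ≠ Ks ≤ P'` and `K` centralizes `Ks`: then `|P| = p ^ 3`, `Ks = Z(P)` has order `p`.
(S1448 gives `P = R₁ R₂`; `P' = R₁' = Ω₁(R₂)` has order `p`; `K` centralizes the `p`-th powers
of `P` by S0120, so `[P, K] ≤ R₁`.)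
-/
import Mathlib
import Cfsg.Agent.S0120
import Cfsg.Agent.S1448
import Cfsg.Agent.Helper23.Rank2GL
import Cfsg.Agent.Helper35.Coprime
import Cfsg.Agent.Helper35.CoprimeAbelian

set_option autoImplicit false

namespace Cfsg.Agent.Helper68

open Cfsg Subgroup
open scoped commutatorElement

theorem t5_rank2_aux {Γ : Type*} [Group Γ] [Finite Γ] {p : ℕ} [Fact p.Prime] (hp2 : p ≠ 2)
    {P K Ks : Subgroup Γ} (hP : IsPGroup p P) (hPnab : ¬ IsMulCommutative P)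
    (hr : Cfsg.PRankLE p 2 P) (hKn : K ≤ Subgroup.normalizer (P : Set Γ))
    (hKodd : Odd (Nat.card K)) (hKp : (Nat.card K).Coprime p) (hPK : ⁅P, K⁆ = P)
    (hKs1 : Ks ≠ ⊥) (hKsP : Ks ≤ ⁅P, P⁆)
    (hKsK : ∀ k ∈ K, ∀ z ∈ Ks, k * z = z * k) :
    ∃ R₁ R₂ : Subgroup Γ, R₁ ⊔ R₂ = P ∧ Nat.card R₁ = p ^ 3 ∧ Nat.card Ks = p ∧ Ks ≤ R₁ ∧
      (∀ z ∈ Ks, ∀ a ∈ P, z * a = a * z) ∧ ⁅P, K⁆ ≤ R₁ := by
  classical
  have hpp : p.Prime := Fact.out
  have hP1 : P ≠ ⊥ := by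
    intro h
    apply hPnab
    have hall : ∀ x : Γ, x ∈ P → x = 1 := by
      intro x hx
      rw [h] at hx
      exact mem_bot.mp hx
    refine ⟨⟨fun a b => ?_⟩⟩
    apply Subtype.ext
    rw [Subgroup.coe_mul, Subgroup.coe_mul, hall _ a.2, hall _ b.2]
  obtain ⟨-, h48⟩ := Cfsg.Agent.S1448.result p hp2 P K hP hP1 hr hKn hKp hKodd hPK
  rcases h48 with hab | ⟨R₁, R₂, hsup, hcomm12, hR₁nab, hR₁c, hR₁e, hR₂c, hΩ⟩
  · exact absurd hab hPnab
  have hR₁P : R₁ ≤ P := hsup ▸ le_sup_left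
  have hR₂P : R₂ ≤ P := hsup ▸ le_sup_right
  have hR₂comm : ∀ a ∈ R₂, ∀ b ∈ R₂, a * b = b * a := by
    intro a ha b hb
    have h := (IsCyclic.isMulCommutative (α := ↥R₂)).is_comm.comm ⟨a, ha⟩ ⟨b, hb⟩
    exact congrArg Subtype.val h
  have hR₂cen : ∀ b ∈ R₂, ∀ x ∈ P, b * x = x * b := by
    intro b hb x hx
    have hle : P ≤ centralizer ({b} : Set Γ) := by
      rw [← hsup]
      apply sup_le
      · intro a ha
        rw [mem_centralizer_iff]
        intro t ht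
        rw [Set.mem_singleton_iff] at ht
        rw [ht]
        exact (hcomm12 a ha b hb).symm
      · intro a ha
        rw [mem_centralizer_iff]
        intro t ht
        rw [Set.mem_singleton_iff] at ht
        rw [ht]
        exact hR₂comm b hb a ha
    exact (mem_centralizer_iff.mp (hle hx)) b (Set.mem_singleton b)
  obtain ⟨D, hD⟩ : ∃ D : Subgroup Γ, D = ⁅R₁, R₁⁆ := ⟨_, rfl⟩
  rw [← hD] at hΩ
  have hDR₂ : D ≤ R₂ := by
    rw [← hΩ, closure_le]
    intro x hx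
    exact hx.1
  have hDR₁ : D ≤ R₁ := by
    rw [hD, Subgroup.commutator_le]
    intro a ha b hb
    rw [commutatorElement_def]
    exact R₁.mul_mem (R₁.mul_mem (R₁.mul_mem ha hb) (R₁.inv_mem ha)) (R₁.inv_mem hb)
  have hDexp : ∀ d ∈ D, d ^ p = 1 := by
    intro d hd
    rw [← hΩ] at hd
    have key : d ∈ R₂ ∧ d ^ p = 1 := by
      refine Subgroup.closure_induction (p := fun x _ => x ∈ R₂ ∧ x ^ p = 1) ?_ ?_ ?_ ?_ hd
      · intro x hx; exact hx
      · exact ⟨R₂.one_mem, one_pow p⟩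
      · intro x y _ _ hx hy
        refine ⟨R₂.mul_mem hx.1 hy.1, ?_⟩
        have hc : Commute x y := hR₂comm x hx.1 y hy.1
        rw [hc.mul_pow, hx.2, hy.2, one_mul]
      · intro x _ hx
        exact ⟨R₂.inv_mem hx.1, by rw [inv_pow, hx.2, inv_one]⟩
    exact key.2
  have hD1 : D ≠ ⊥ := by
    intro h
    apply hR₁nab
    refine ⟨⟨fun a b => ?_⟩⟩
    have hm : ⁅(a : Γ), (b : Γ)⁆ ∈ D := by
      rw [hD]; exact Subgroup.commutator_mem_commutator a.2 b.2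
    rw [h, mem_bot, commutatorElement_eq_one_iff_mul_comm] at hm
    exact Subtype.ext hm
  have hDcyc : IsCyclic ↥D := by
    have h1 : IsCyclic ↥(D.subgroupOf R₂) := inferInstance
    exact (Subgroup.subgroupOfEquivOfLe hDR₂).isCyclic.mp h1
  have hDc : Nat.card D = p := by
    obtain ⟨d, hd⟩ := hDcyc.exists_generator
    have h1 : orderOf d = Nat.card D := orderOf_eq_card_of_forall_mem_zpowers hd
    have h2 : orderOf d ∣ p := by
      apply orderOf_dvd_of_pow_eq_one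
      apply Subtype.ext
      rw [Subgroup.coe_pow]
      exact hDexp d d.2
    rw [h1] at h2
    rcases (Nat.dvd_prime hpp).mp h2 with h | h
    · exfalso; exact hD1 ((Subgroup.card_eq_one).mp h)
    · exact h
  -- `P' ≤ D`
  have hnorm : R₂ ≤ normalizer (R₁ : Set Γ) := by
    intro b hb
    rw [mem_normalizer_iff]
    intro h
    constructor
    · intro hh
      have e : b * h * b⁻¹ = h := by
        rw [hR₂cen b hb h (hR₁P hh), mul_inv_cancel_right]
      rw [e]; exact hh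
    · intro hh
      have hbi : b⁻¹ ∈ R₂ := R₂.inv_mem hb
      have e : b⁻¹ * (b * h * b⁻¹) * b⁻¹⁻¹ = b * h * b⁻¹ := by
        rw [hR₂cen b⁻¹ hbi _ (hR₁P hh), mul_inv_cancel_right]
      have e2 : b⁻¹ * (b * h * b⁻¹) * b⁻¹⁻¹ = h := by group
      rw [← e2, e]; exact hh
  have hdec : ∀ g ∈ P, ∃ a ∈ R₁, ∃ b ∈ R₂, g = a * b := by
    intro g hg
    rw [← hsup] at hg
    exact Cfsg.Agent.Helper35.exists_mul_of_mem_sup_of_le_normalizer hnorm hg
  have hPP : ⁅P, P⁆ ≤ D := by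
    rw [Subgroup.commutator_le]
    intro g₁ hg₁ g₂ hg₂
    obtain ⟨a₁, ha₁, b₁, hb₁, rfl⟩ := hdec g₁ hg₁
    obtain ⟨a₂, ha₂, b₂, hb₂, rfl⟩ := hdec g₂ hg₂
    rw [Cfsg.Agent.Helper35.commutatorElement_mul_of_commute a₁ b₁ (a₂ * b₂)
      (hR₂cen b₁ hb₁ _ hg₂).symm]
    have e : ⁅a₁, a₂ * b₂⁆ = (⁅a₂ * b₂, a₁⁆)⁻¹ := (commutatorElement_inv _ _).symm
    rw [e, Cfsg.Agent.Helper35.commutatorElement_mul_of_commute a₂ b₂ a₁
      (hR₂cen b₂ hb₂ _ (hR₁P ha₁)).symm, commutatorElement_inv, hD]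
    exact Subgroup.commutator_mem_commutator ha₁ ha₂
  have hKsD : Ks = D := by
    have hle : Ks ≤ D := hKsP.trans hPP
    apply Subgroup.eq_of_le_of_card_ge hle
    rw [hDc]
    have h1 : Nat.card Ks ∣ p := hDc ▸ Subgroup.card_dvd_of_le hle
    rcases (Nat.dvd_prime hpp).mp h1 with h | h
    · exact absurd ((Subgroup.card_eq_one).mp h) hKs1
    · exact h.ge
  -- a generator of `R₂`
  obtain ⟨r', hr'⟩ := hR₂c.exists_generator
  obtain ⟨r, hr⟩ : ∃ r : Γ, r = (r' : Γ) := ⟨_, rfl⟩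
  have hrR₂ : r ∈ R₂ := hr ▸ r'.2
  have hgen : ∀ b ∈ R₂, ∃ i : ℤ, b = r ^ i := by
    intro b hb
    obtain ⟨i, hi⟩ := Subgroup.mem_zpowers_iff.mp (hr' ⟨b, hb⟩)
    refine ⟨i, ?_⟩
    have := congrArg Subtype.val hi
    rw [hr]
    simpa using this.symm
  have hR₁exp : ∀ a ∈ R₁, a ^ p = 1 := by
    intro a ha
    have h := Monoid.pow_exponent_eq_one (⟨a, ha⟩ : ↥R₁)
    rw [hR₁e] at h
    have := congrArg Subtype.val h
    simpa using this
  have hpow : ∀ a ∈ R₁, ∀ b ∈ R₂, (a * b) ^ p = b ^ p := by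
    intro a ha b hb
    have hc : Commute a b := hcomm12 a ha b hb
    rw [hc.mul_pow, hR₁exp a ha, one_mul]
  have hrip : ∀ i : ℤ, (r ^ i) ^ p = (r ^ p) ^ i := by
    intro i
    rw [← zpow_natCast (r ^ i) p, ← zpow_mul, ← zpow_natCast r p, ← zpow_mul, mul_comm]
  obtain ⟨V, hV⟩ : ∃ V : Subgroup Γ, V = zpowers (r ^ p) := ⟨_, rfl⟩
  have hVR₂ : V ≤ R₂ := by
    rw [hV, zpowers_le]
    exact R₂.pow_mem hrR₂ p
  have hconjV : ∀ k ∈ K, ∀ v ∈ V, k * v * k⁻¹ ∈ V := by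
    intro k hk v hv
    rw [hV] at hv ⊢
    obtain ⟨j, rfl⟩ := mem_zpowers_iff.mp hv
    have hkr : k * r * k⁻¹ ∈ P := (mem_normalizer_iff.mp (hKn hk) r).mp (hR₂P hrR₂)
    obtain ⟨a, ha, b, hb, hab⟩ := hdec _ hkr
    obtain ⟨i, hi⟩ := hgen b hb
    have e1 : k * (r ^ p) ^ j * k⁻¹ = ((k * r * k⁻¹) ^ p) ^ j := by
      rw [conj_pow, conj_zpow]
    rw [e1, hab, hpow a ha b hb, hi, hrip i, ← zpow_mul]
    exact zpow_mem (mem_zpowers _) _
  have hKV : K ≤ normalizer (V : Set Γ) := by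
    intro k hk
    rw [mem_normalizer_iff]
    intro h
    constructor
    · exact hconjV k hk h
    · intro hh
      have := hconjV k⁻¹ (K.inv_mem hk) _ hh
      have e : k⁻¹ * (k * h * k⁻¹) * k⁻¹⁻¹ = h := by group
      rwa [e] at this
  have hVp : IsPGroup p ↥V := hP.to_le (hVR₂.trans hR₂P)
  have hKcentV : ∀ k ∈ K, ∀ v ∈ V, k * v = v * k := by
    intro k hk v hv
    have h1 : Cfsg.Agent.Helper23.conjActHom V K hKV ⟨k, hk⟩ = 1 := by
      apply Cfsg.Agent.S0120.result hp2 hVp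
      · have hd1 : orderOf (Cfsg.Agent.Helper23.conjActHom V K hKV ⟨k, hk⟩) ∣
            orderOf (⟨k, hk⟩ : ↥K) := orderOf_map_dvd _ _
        have hd2 : orderOf (⟨k, hk⟩ : ↥K) ∣ Nat.card K := orderOf_dvd_natCard _
        exact Nat.Coprime.coprime_dvd_left (hd1.trans hd2) hKp
      · intro x hx
        apply Subtype.ext
        rw [Cfsg.Agent.Helper23.conjActHom_apply]
        have hxp : (x : Γ) ^ p = 1 := by
          have := congrArg Subtype.val hx
          simpa using this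
        have hxD : (x : Γ) ∈ D := by
          rw [← hΩ]
          exact Subgroup.subset_closure ⟨hVR₂ x.2, hxp⟩
        rw [← hKsD] at hxD
        show k * (x : Γ) * k⁻¹ = x
        rw [hKsK k hk _ hxD, mul_inv_cancel_right]
    have h2 := Cfsg.Agent.Helper23.mem_centralizer_of_conjActHom_eq_one V K hKV ⟨k, hk⟩ h1
    exact ((mem_centralizer_iff.mp h2) v hv).symm
  have hPKR₁ : ⁅P, K⁆ ≤ R₁ := by
    rw [Subgroup.commutator_le]
    intro x hx k hk
    have hy : k * x * k⁻¹ ∈ P := (mem_normalizer_iff.mp (hKn hk) x).mp hx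
    obtain ⟨a, ha, b, hb, hxab⟩ := hdec x hx
    obtain ⟨a', ha', b', hb', hyab⟩ := hdec _ hy
    obtain ⟨i, hi⟩ := hgen b hb
    have hxp : x ^ p = b ^ p := by rw [hxab, hpow a ha b hb]
    have hbV : b ^ p ∈ V := by
      rw [hV, hi, hrip i]
      exact zpow_mem (mem_zpowers _) _
    have hyp : (k * x * k⁻¹) ^ p = x ^ p := by
      rw [conj_pow, hxp, hKcentV k hk _ hbV, mul_inv_cancel_right]
    have hb'p : b' ^ p = b ^ p := by
      rw [← hpow a' ha' b' hb', ← hyab, hyp, hxp]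
    have hbb : b * b'⁻¹ ∈ D := by
      rw [← hΩ]
      apply Subgroup.subset_closure
      refine ⟨R₂.mul_mem hb (R₂.inv_mem hb'), ?_⟩
      have hc : Commute b b'⁻¹ := hR₂comm b hb _ (R₂.inv_mem hb')
      rw [hc.mul_pow, inv_pow, hb'p, mul_inv_cancel]
    have e : ⁅x, k⁆ = x * (k * x * k⁻¹)⁻¹ := by
      rw [commutatorElement_def]; group
    have e3 : x * (a' * b')⁻¹ = a * (b * b'⁻¹) * a'⁻¹ := by
      rw [hxab]; group
    rw [e, hyab, e3]
    exact R₁.mul_mem (R₁.mul_mem ha (hDR₁ hbb)) (R₁.inv_mem ha')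
  refine ⟨R₁, R₂, hsup, hR₁c, ?_, ?_, ?_, hPKR₁⟩
  · rw [hKsD]; exact hDc
  · rw [hKsD]; exact hDR₁
  · intro z hz a ha
    rw [hKsD] at hz
    exact hR₂cen z (hDR₂ hz) a ha

/-- The structure of `P` in the rank-2 case: `|P| = p ^ 3` and `Ks = Z(P)` has order `p`. -/
theorem t5_rank2_struct {Γ : Type*} [Group Γ] [Finite Γ] {p : ℕ} [Fact p.Prime] (hp2 : p ≠ 2)
    {P K Ks : Subgroup Γ} (hP : IsPGroup p P) (hPnab : ¬ IsMulCommutative P)
    (hr : Cfsg.PRankLE p 2 P) (hKn : K ≤ Subgroup.normalizer (P : Set Γ))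
    (hKodd : Odd (Nat.card K)) (hKp : (Nat.card K).Coprime p) (hPK : ⁅P, K⁆ = P)
    (hKs1 : Ks ≠ ⊥) (hKsP : Ks ≤ ⁅P, P⁆)
    (hKsK : ∀ k ∈ K, ∀ z ∈ Ks, k * z = z * k) :
    Nat.card P = p ^ 3 ∧ Ks ≤ P ∧ Nat.card Ks = p ∧ (∀ z ∈ Ks, ∀ a ∈ P, z * a = a * z) ∧
      (∀ a ∈ P, (∀ b ∈ P, a * b = b * a) → a ∈ Ks) := by
  classical
  have hpp : p.Prime := Fact.out
  obtain ⟨R₁, R₂, hsup, hR₁c, hKsc, hKsR₁, hcen, hPKR₁⟩ :=
    t5_rank2_aux hp2 hP hPnab hr hKn hKodd hKp hPK hKs1 hKsP hKsK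
  have hR₁P : R₁ ≤ P := hsup ▸ le_sup_left
  have hPR₁ : P = R₁ := le_antisymm (by rw [hPK] at hPKR₁; exact hPKR₁) hR₁P
  have hPc : Nat.card P = p ^ 3 := by rw [hPR₁]; exact hR₁c
  have hKsPle : Ks ≤ P := hKsR₁.trans hR₁P
  refine ⟨hPc, hKsPle, hKsc, hcen, ?_⟩
  have hPt : IsPGroup p ↥P := hP
  have hnt : Nontrivial ↥P := by
    apply Finite.one_lt_card_iff_nontrivial.mp
    rw [hPc]
    exact Nat.one_lt_pow (by norm_num) hpp.one_lt
  have hcz : Nat.card (Subgroup.center ↥P) = p := by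
    obtain ⟨k, hk⟩ := IsPGroup.iff_card.mp (hPt.to_subgroup (Subgroup.center ↥P))
    have hdvd : p ^ k ∣ p ^ 3 := by
      rw [← hk, ← hPc]; exact Subgroup.card_subgroup_dvd_card _
    have hk3 : k ≤ 3 := (Nat.pow_dvd_pow_iff_le_right hpp.one_lt).mp hdvd
    have hk0 : k ≠ 0 := by
      intro h
      rw [h, pow_zero] at hk
      have hn := hPt.center_nontrivial
      have h1 : Subgroup.center ↥P = ⊥ := (Subgroup.card_eq_one).mp hk
      exact (Subgroup.nontrivial_iff_ne_bot _).mp hn h1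
    have hk3' : k ≠ 3 := by
      intro h
      apply hPnab
      have htop : Subgroup.center ↥P = ⊤ :=
        Subgroup.eq_top_of_card_eq _ (by rw [hk, h, hPc])
      refine ⟨⟨fun a b => ?_⟩⟩
      have ha : a ∈ Subgroup.center ↥P := by rw [htop]; exact Subgroup.mem_top a
      exact (Subgroup.mem_center_iff.mp ha b).symm
    have hk2 : k ≠ 2 := by
      intro h
      apply hPnab
      have hq : Nat.card (↥P ⧸ Subgroup.center ↥P) = p := by
        have h1 := Subgroup.card_eq_card_quotient_mul_card_subgroup (Subgroup.center ↥P)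
        rw [hPc, hk, h] at h1
        have h3 : p ^ 3 = p * p ^ 2 := by ring
        rw [h3] at h1
        exact (Nat.eq_of_mul_eq_mul_right (pow_pos hpp.pos 2) h1).symm
      have : IsCyclic (↥P ⧸ Subgroup.center ↥P) := isCyclic_of_prime_card hq
      exact (QuotientGroup.mk' (Subgroup.center ↥P)).isMulCommutative_of_isCyclic_of_ker_le_center
        (by rw [QuotientGroup.ker_mk'])
    have hk1 : k = 1 := by omega
    rw [hk, hk1, pow_one]
  intro a ha hall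
  have hmem : (⟨a, ha⟩ : ↥P) ∈ Subgroup.center ↥P := by
    rw [Subgroup.mem_center_iff]
    intro g
    apply Subtype.ext
    exact (hall g g.2).symm
  have hle : Ks.subgroupOf P ≤ Subgroup.center ↥P := by
    intro z hz
    rw [Subgroup.mem_center_iff]
    intro g
    apply Subtype.ext
    exact (hcen z (Subgroup.mem_subgroupOf.mp hz) g g.2).symm
  have hcard : Nat.card (Ks.subgroupOf P) = p := by
    rw [Nat.card_congr (Subgroup.subgroupOfEquivOfLe hKsPle).toEquiv, hKsc]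
  have heq : Ks.subgroupOf P = Subgroup.center ↥P :=
    Subgroup.eq_of_le_of_card_ge hle (by rw [hcard, hcz])
  rw [← heq] at hmem
  exact Subgroup.mem_subgroupOf.mp hmem

/-- CALL BG83 (row S1383), stages CASEB1 + CASEB2 in one statement: a non-abelian `p`-group `P`
of `p`-rank at most 2 with `[P, K] = P` for a group `K` of odd order prime to `p` centralizing
`P'` has order `p ^ 3`. -/
theorem bg83_case_B (p : ℕ) [Fact p.Prime] (hp2 : p ≠ 2) {Γ : Type*} [Group Γ] [Finite Γ]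
    (P K : Subgroup Γ) (hP : IsPGroup p P) (hr : Cfsg.PRankLE p 2 ↥P)
    (hKP : K ≤ normalizer (P : Set Γ)) (hodd : Odd (Nat.card K)) (hcop : (Nat.card K).Coprime p)
    (hPK : ⁅P, K⁆ = P) (hnab : ⁅P, P⁆ ≠ ⊥)
    (hcent : ∀ k ∈ K, ∀ z ∈ ⁅P, P⁆, k * z = z * k) :
    Nat.card ↥P = p ^ 3 ∧ Nat.card ↥⁅P, P⁆ = p ∧ (∀ z ∈ ⁅P, P⁆, ∀ a ∈ P, z * a = a * z) ∧
      (∀ a ∈ P, (∀ b ∈ P, a * b = b * a) → a ∈ ⁅P, P⁆) := by
  have hPnab : ¬ IsMulCommutative ↥P := by
    intro hc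
    apply hnab
    rw [eq_bot_iff, Subgroup.commutator_le]
    intro a ha b hb
    have h := hc.is_comm.comm (⟨a, ha⟩ : ↥P) ⟨b, hb⟩
    have h' : a * b = b * a := congrArg Subtype.val h
    rw [mem_bot, commutatorElement_eq_one_iff_mul_comm]
    exact h'
  obtain ⟨h1, -, h3, h4, h5⟩ :=
    t5_rank2_struct hp2 hP hPnab hr hKP hodd hcop hPK hnab le_rfl hcent
  exact ⟨h1, h3, h4, h5⟩

end Cfsg.Agent.Helper68
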