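import Mathlib
import Cfsg.Prelude.Def_Transfer
import Cfsg.Agent.Helper70.Grun
import Cfsg.Agent.Helper19.TransferOrbit
import Cfsg.Agent.Helper47.Coprime
import Cfsg.Agent.Helper2.Grun
import Cfsg.Agent.Helper51.HWEngel

set_option autoImplicit false

namespace Cfsg.Agent.Helper68

open Subgroup MulAction Finset
open scoped Pointwise
open Cfsg.Agent.Helper70 (psi psi_of_mem psi_mul psi_pow psi_conj smul_eq_iff_conj_mem transfer_eq_prod_fixed)

/-- Membership in a filtered `univ`, for an arbitrary decidability instance. -/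
theorem wy_mem_filter_univ {α : Type*} [Fintype α] {q : α → Prop} (inst : DecidablePred q)
    (x : α) : x ∈ @Finset.filter α q inst Finset.univ ↔ q x := by
  simp

/-- Iterated finite differences in a commutative group of exponent `p`:
the `(p-1)`-st difference at `0` is the product of the first `p` values. -/
theorem wy_fd {A : Type*} [CommGroup A] {p : ℕ} [Fact p.Prime] (hA : ∀ a : A, a ^ p = 1)
    (b : ℕ → ℕ → A) (hb : ∀ k j, b (k + 1) j = (b k j)⁻¹ * b k (j + 1)) :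
    b (p - 1) 0 = ∏ i ∈ range p, b 0 i := by
  classical
  let _ : Module (ZMod p) (Additive A) := AddCommGroup.zmodModule (n := p) (by
    intro a
    have h1 := hA (Additive.toMul a)
    have h2 : p • a = Additive.ofMul ((Additive.toMul a) ^ p) := rfl
    rw [h2, h1]
    rfl)
  let ξ : Module.End (ZMod p) (ℕ → Additive A) :=
    LinearMap.funLeft (ZMod p) (Additive A) Nat.succ
  have hξ : ∀ (Ψ : ℕ → Additive A) (s : ℕ), ξ Ψ s = Ψ (s + 1) := fun Ψ s => rfl
  have hpow : ∀ (i : ℕ) (Ψ : ℕ → Additive A), (ξ ^ i) Ψ = fun s => Ψ (s + i) := by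
    intro i
    induction i with
    | zero => intro Ψ; rfl
    | succ i ih =>
      intro Ψ
      rw [pow_succ, Module.End.mul_apply, ih]
      funext s
      rw [hξ]
      rfl
  have hsub : ∀ (k : ℕ), ((ξ - 1) ^ k) (fun s => Additive.ofMul (b 0 s)) =
      fun s => Additive.ofMul (b k s) := by
    intro k
    induction k with
    | zero => rfl
    | succ k ih =>
      rw [pow_succ', Module.End.mul_apply, ih]
      funext s
      rw [LinearMap.sub_apply, Module.End.one_apply, Pi.sub_apply, hξ, hb, ← ofMul_div,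
        div_eq_mul_inv, mul_comm]
  have h1 := Cfsg.Agent.Helper51.hw_geom (p := p) ξ
  have h2 : ((ξ - 1) ^ (p - 1)) (fun s => Additive.ofMul (b 0 s)) 0 =
      (∑ i ∈ range p, ξ ^ i) (fun s => Additive.ofMul (b 0 s)) 0 := by rw [h1]
  rw [hsub, LinearMap.sum_apply, Finset.sum_apply] at h2
  have h3 : ∀ i ∈ range p, (ξ ^ i) (fun s => Additive.ofMul (b 0 s)) 0 =
      Additive.ofMul (b 0 i) := by
    intro i _
    rw [hpow]
    simp
  rw [Finset.sum_congr rfl h3, ← ofMul_prod] at h2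
  exact Additive.ofMul.injective h2

section Psi

variable {G : Type*} [Group G] {H : Subgroup G} {A : Type*} [CommGroup A] (ϕ : H →* A)

theorem wy_psi_one : psi ϕ 1 = 1 := by
  rw [psi_of_mem ϕ (one_mem H)]
  exact map_one ϕ

theorem wy_psi_inv {x : G} (hx : x ∈ H) : psi ϕ x⁻¹ = (psi ϕ x)⁻¹ := by
  have h := psi_mul ϕ hx (H.inv_mem hx)
  rw [mul_inv_cancel, wy_psi_one] at h
  exact eq_inv_of_mul_eq_one_right h.symm

/-- Independence of the coset representative. -/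
theorem wy_psi_out (c : G ⧸ H) (k a : G) (hk : (k : G ⧸ H) = c) (hka : k⁻¹ * a * k ∈ H) :
    psi ϕ (c.out⁻¹ * a * c.out) = psi ϕ (k⁻¹ * a * k) := by
  have h1 : k⁻¹ * c.out ∈ H := by
    rw [← QuotientGroup.eq, hk, QuotientGroup.out_eq']
  have e : c.out⁻¹ * a * c.out = (k⁻¹ * c.out)⁻¹ * (k⁻¹ * a * k) * (k⁻¹ * c.out) := by group
  rw [e]
  exact psi_conj ϕ hka h1

theorem wy_smul_mk_iff (a k : G) : a • (k : G ⧸ H) = (k : G ⧸ H) ↔ k⁻¹ * a * k ∈ H := by
  rw [show a • (k : G ⧸ H) = ((a * k : G) : G ⧸ H) from rfl, QuotientGroup.eq]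
  constructor
  · intro h
    have := H.inv_mem h
    simpa [mul_assoc] using this
  · intro h
    have := H.inv_mem h
    simpa [mul_assoc] using this

end Psi

/-- Cosets of a normal subgroup of prime index. -/
theorem wy_index_p_cosets {U : Type*} [Group U] {p : ℕ} [Fact p.Prime] (X : Subgroup U)
    [X.Normal] (hX : X.index = p) (z : U) (hz : z ∉ X) :
    (∀ a : U, ∃ i < p, (z ^ i)⁻¹ * a ∈ X) ∧
      (∀ i j, i < p → j < p → (z ^ i)⁻¹ * z ^ j ∈ X → i = j) := by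
  have hp : p.Prime := Fact.out
  have hcard : Nat.card (U ⧸ X) = p := by rw [← Subgroup.index_eq_card, hX]
  have hz1 : (z : U ⧸ X) ≠ 1 := by
    intro h
    exact hz ((QuotientGroup.eq_one_iff z).mp h)
  have hord : orderOf (z : U ⧸ X) = p := by
    apply orderOf_eq_prime _ hz1
    rw [← hcard]
    exact pow_card_eq_one'
  constructor
  · intro a
    have h1 : (a : U ⧸ X) ∈ zpowers (z : U ⧸ X) := by
      rw [zpowers_eq_top_of_prime_card hcard hz1]
      exact mem_top _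
    obtain ⟨k, hk⟩ := mem_zpowers_iff.mp h1
    have hp0 : (p : ℤ) ≠ 0 := by exact_mod_cast hp.ne_zero
    have h2 : 0 ≤ k % (p : ℤ) := Int.emod_nonneg k hp0
    have h3 : k % (p : ℤ) < p := Int.emod_lt_of_pos k (by exact_mod_cast hp.pos)
    refine ⟨(k % (p : ℤ)).toNat, by omega, ?_⟩
    rw [← QuotientGroup.eq, ← hk, QuotientGroup.mk_pow, ← zpow_natCast, Int.toNat_of_nonneg h2]
    conv_rhs => rw [← zpow_mod_orderOf]
    rw [hord]
  · intro i j hi hj h
    have h1 : ((z ^ i : U) : U ⧸ X) = ((z ^ j : U) : U ⧸ X) := QuotientGroup.eq.mpr h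
    rw [QuotientGroup.mk_pow, QuotientGroup.mk_pow] at h1
    exact pow_injOn_Iio_orderOf (by rw [hord]; exact hi) (by rw [hord]; exact hj) h1

/-- Sylow conjugacy inside a subgroup containing the Sylow subgroup. -/
theorem wy_conj_into_sylow {G : Type*} [Group G] [Finite G] {p : ℕ} [Fact p.Prime]
    (S : Sylow p G) (H Q : Subgroup G) (hSH : (S : Subgroup G) ≤ H) (hQH : Q ≤ H)
    (hQ : IsPGroup p Q) : ∃ n ∈ H, ∀ q ∈ Q, n⁻¹ * q * n ∈ (S : Subgroup G) := by
  have hQ' : IsPGroup p (Q.subgroupOf H) := hQ.comap_subtype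
  obtain ⟨R, hR⟩ := hQ'.exists_le_sylow
  obtain ⟨h, hh⟩ := MulAction.exists_smul_eq H (S.subtype hSH) R
  refine ⟨h, h.2, ?_⟩
  intro q hq
  have h1 : (⟨q, hQH hq⟩ : H) ∈ (R : Subgroup H) := hR (Subgroup.mem_subgroupOf.mpr hq)
  rw [← hh, Cfsg.Agent.Helper2.mem_smul_sylow_iff] at h1
  have h2 : h⁻¹ * (⟨q, hQH hq⟩ : H) * h ∈ (S : Subgroup G).subgroupOf H := by
    rw [← Sylow.coe_subtype S hSH]
    exact h1
  exact Subgroup.mem_subgroupOf.mp h2


open Classical in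
/-- Product over the fixed points in an orbit of a subgroup `X` as a transfer into `X`. -/
theorem wy_orbit_transfer {G : Type*} [Group G] [Finite G] (H : Subgroup G) [Fintype (G ⧸ H)]
    {A : Type*} [CommGroup A] (ϕ : H →* A) (X : Subgroup G) (w : G ⧸ H) :
    ∃ τ : X →* A, ∀ a : X,
      (∀ (k : G) (f : ℕ), f ∣ orderOf (a : G) → f ≠ 1 → k⁻¹ * (a : G) ^ f * k ∈ H →
        psi ϕ (k⁻¹ * (a : G) ^ f * k) = 1) →
      τ a = ∏ c ∈ Finset.univ.filter (fun c : G ⧸ H => c ∈ MulAction.orbit X w ∧ (a : G) • c = c),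
        psi ϕ (c.out⁻¹ * (a : G) * c.out) := by
  set g : G := w.out with hg
  have hgw : (g : G ⧸ H) = w := QuotientGroup.out_eq' w
  let Y : Subgroup X := MulAction.stabilizer X w
  have hYmem : ∀ y : X, y ∈ Y ↔ g⁻¹ * (y : G) * g ∈ H := by
    intro y
    rw [show (y ∈ Y) ↔ ((y : G) • w = w) from MulAction.mem_stabilizer_iff, ← hgw]
    exact wy_smul_mk_iff _ _
  let ι : Y →* H :=
    { toFun := fun y => ⟨g⁻¹ * ((y : X) : G) * g, (hYmem y).mp y.2⟩
      map_one' := by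
        apply Subtype.ext
        simp
      map_mul' := by
        intro a b
        apply Subtype.ext
        simp [mul_assoc] }
  let ν : Y →* A := ϕ.comp ι
  have hν : ∀ (y : X) (hy : y ∈ Y), psi ν y = psi ϕ (g⁻¹ * (y : G) * g) := by
    intro y hy
    rw [psi_of_mem ν hy, psi_of_mem ϕ ((hYmem y).mp hy)]
    rfl
  refine ⟨MonoidHom.transfer ν, ?_⟩
  intro a hlow
  letI : Fintype (X ⧸ Y) := Fintype.ofFinite _
  have hone : ∀ d : X ⧸ Y, Function.minimalPeriod (a • ·) d ≠ 1 →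
      psi ν (d.out⁻¹ * a ^ Function.minimalPeriod (a • ·) d * d.out) = 1 := by
    intro d hd
    have hmem := QuotientGroup.out_conj_pow_minimalPeriod_mem Y a d
    rw [hν _ hmem]
    have e : g⁻¹ * ((d.out⁻¹ * a ^ Function.minimalPeriod (a • ·) d * d.out : X) : G) * g =
        ((d.out : G) * g)⁻¹ * (a : G) ^ Function.minimalPeriod (a • ·) d * ((d.out : G) * g) := by
      simp [mul_assoc]
    rw [e]
    apply hlow
    · rw [Subgroup.orderOf_coe, ← MulAction.period_eq_minimalPeriod]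
      exact MulAction.period_dvd_orderOf a d
    · exact hd
    · rw [← e]
      exact (hYmem _).mp hmem
  rw [transfer_eq_prod_fixed ν a hone]
  -- the orbit map
  let e : X ⧸ Y → G ⧸ H := fun d => (d.out : X) • w
  have he1 : ∀ x : X, e (x : X ⧸ Y) = x • w := by
    intro x
    obtain ⟨y, hy⟩ := QuotientGroup.mk_out_eq_mul Y x
    show ((x : X ⧸ Y).out : X) • w = x • w
    rw [hy, mul_smul]
    congr 1
    exact y.2
  have hinj : Function.Injective e := by
    intro d1 d2 h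
    have h1 : (d1.out⁻¹ * d2.out : X) • w = w := by
      rw [mul_smul]
      have h2 : (d2.out : X) • w = (d1.out : X) • w := h.symm
      rw [h2, ← mul_smul, inv_mul_cancel, one_smul]
    have h3 : ((d1.out : X) : X ⧸ Y) = ((d2.out : X) : X ⧸ Y) := QuotientGroup.eq.mpr h1
    rwa [QuotientGroup.out_eq', QuotientGroup.out_eq'] at h3
  have hequiv : ∀ d : X ⧸ Y, e (a • d) = a • e d := by
    intro d
    have h1 : a • d = ((a * d.out : X) : X ⧸ Y) := by
      conv_lhs => rw [← QuotientGroup.out_eq' d]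
      rfl
    rw [h1, he1, mul_smul]
  have hfix : ∀ d : X ⧸ Y, a • d = d ↔ (a : G) • e d = e d := by
    intro d
    constructor
    · intro h
      have := hequiv d
      rw [h] at this
      exact this.symm
    · intro h
      apply hinj
      rw [hequiv]
      exact h
  apply Finset.prod_bij (fun d _ => e d)
  · intro d hd
    have hd2 := (wy_mem_filter_univ _ _).mp hd
    exact (wy_mem_filter_univ _ _).mpr ⟨⟨d.out, rfl⟩, (hfix d).mp hd2⟩
  · intro d1 _ d2 _ h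
    exact hinj h
  · intro c hc
    have hc2 := (wy_mem_filter_univ _ _).mp hc
    obtain ⟨x, hx⟩ := hc2.1
    refine ⟨(x : X ⧸ Y), ?_, ?_⟩
    · refine (wy_mem_filter_univ _ _).mpr ?_
      rw [hfix, he1]
      have : x • w = c := hx
      rw [this]
      exact hc2.2
    · rw [he1]
      exact hx
  · intro d hd
    have hd2 := (wy_mem_filter_univ _ _).mp hd
    have hmem : d.out⁻¹ * a * d.out ∈ Y := (smul_eq_iff_conj_mem a d).mp hd2
    rw [hν _ hmem]
    have e2 : g⁻¹ * ((d.out⁻¹ * a * d.out : X) : G) * g =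
        ((d.out : G) * g)⁻¹ * (a : G) * ((d.out : G) * g) := by
      simp [mul_assoc]
    rw [e2]
    symm
    apply wy_psi_out ϕ (e d) ((d.out : G) * g) (a : G)
    · show (((d.out : G) * g : G) : G ⧸ H) = (d.out : X) • w
      rw [← hgw]
      rfl
    · rw [← e2]
      exact (hYmem _).mp hmem


theorem wy_conj_pow {G : Type*} [Group G] (g u : G) (f : ℕ) :
    (g⁻¹ * u * g) ^ f = g⁻¹ * u ^ f * g := by
  have := conj_pow (a := g⁻¹) (b := u) (i := f)
  simpa using this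

theorem wy_orderOf_conj {G : Type*} [Group G] (g u : G) : orderOf (g⁻¹ * u * g) = orderOf u := by
  have h1 : SemiconjBy g⁻¹ u (g⁻¹ * u * g) := by
    simp [SemiconjBy, mul_assoc]
  exact h1.orderOf_eq.symm

open Classical in
/-- Contribution of a block which is the union of `p` translates of an `X`-orbit. -/
theorem wy_block {G : Type*} [Group G] [Finite G] {p : ℕ} (H : Subgroup G) [Fintype (G ⧸ H)]
    {A : Type*} [CommGroup A] (ϕ : H →* A) (X : Subgroup G) (z u : G) (w : G ⧸ H)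
    (hzX : ∀ x ∈ X, z⁻¹ * x * z ∈ X) (huX : u ∈ X) (B : Set (G ⧸ H))
    (hB : ∀ c, c ∈ B ↔ ∃ i < p, ∃ x ∈ X, c = (z ^ i * x) • w)
    (hdisj : ∀ i j, i < p → j < p → ∀ x ∈ X, ∀ x' ∈ X,
      (z ^ i * x) • w = (z ^ j * x') • w → i = j)
    (hlow : ∀ (k : G) (f : ℕ), f ∣ orderOf u → f ≠ 1 → k⁻¹ * u ^ f * k ∈ H →
      psi ϕ (k⁻¹ * u ^ f * k) = 1) :
    ∃ τ : X →* A, (∀ i : ℕ, (z ^ i)⁻¹ * u * z ^ i ∈ X) ∧
      ∏ c ∈ Finset.univ.filter (fun c : G ⧸ H => c ∈ B ∧ u • c = c),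
        psi ϕ (c.out⁻¹ * u * c.out) = ∏ i ∈ Finset.range p, psi τ ((z ^ i)⁻¹ * u * z ^ i) := by
  obtain ⟨τ, hτ⟩ := wy_orbit_transfer H ϕ X w
  have hzi : ∀ (i : ℕ) (x : G), x ∈ X → (z ^ i)⁻¹ * x * z ^ i ∈ X := by
    intro i
    induction i with
    | zero => intro x hx; simpa using hx
    | succ i ih =>
      intro x hx
      have h1 := hzX _ (ih x hx)
      have e : (z ^ (i + 1))⁻¹ * x * z ^ (i + 1) = z⁻¹ * ((z ^ i)⁻¹ * x * z ^ i) * z := by
        rw [pow_succ]; group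
      rw [e]; exact h1
  refine ⟨τ, fun i => hzi i u huX, ?_⟩
  have hterm : ∀ i, psi τ ((z ^ i)⁻¹ * u * z ^ i) =
      ∏ c ∈ Finset.univ.filter (fun c : G ⧸ H => c ∈ MulAction.orbit X w ∧
        ((z ^ i)⁻¹ * u * z ^ i) • c = c), psi ϕ (c.out⁻¹ * ((z ^ i)⁻¹ * u * z ^ i) * c.out) := by
    intro i
    rw [psi_of_mem τ (hzi i u huX)]
    apply hτ ⟨_, hzi i u huX⟩
    intro k f hf hf1 hmem
    have e : k⁻¹ * ((z ^ i)⁻¹ * u * z ^ i) ^ f * k = (z ^ i * k)⁻¹ * u ^ f * (z ^ i * k) := by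
      rw [wy_conj_pow]; group
    show psi ϕ (k⁻¹ * ((z ^ i)⁻¹ * u * z ^ i) ^ f * k) = 1
    rw [e]
    apply hlow
    · have h2 : f ∣ orderOf ((z ^ i)⁻¹ * u * z ^ i) := hf
      rwa [wy_orderOf_conj] at h2
    · exact hf1
    · rw [← e]; exact hmem
  have hset : Finset.univ.filter (fun c : G ⧸ H => c ∈ B ∧ u • c = c) =
      (Finset.range p).biUnion (fun i => (Finset.univ.filter (fun c : G ⧸ H =>
        c ∈ MulAction.orbit X w ∧ ((z ^ i)⁻¹ * u * z ^ i) • c = c)).image (fun c => z ^ i • c)) := by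
    ext c
    rw [wy_mem_filter_univ, Finset.mem_biUnion]
    constructor
    · rintro ⟨hcB, hcu⟩
      obtain ⟨i, hi, x, hx, rfl⟩ := (hB c).mp hcB
      refine ⟨i, Finset.mem_range.mpr hi, ?_⟩
      rw [Finset.mem_image]
      refine ⟨x • w, ?_, ?_⟩
      · rw [wy_mem_filter_univ]
        refine ⟨⟨⟨x, hx⟩, rfl⟩, ?_⟩
        have h1 : ((z ^ i)⁻¹ * u * z ^ i) • x • w = (z ^ i)⁻¹ • u • (z ^ i * x) • w := by
          simp only [mul_smul]
        rw [h1, hcu, mul_smul, inv_smul_smul]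
      · show z ^ i • x • w = (z ^ i * x) • w
        rw [mul_smul]
    · rintro ⟨i, hi, hc⟩
      rw [Finset.mem_image] at hc
      obtain ⟨c', hc', rfl⟩ := hc
      rw [wy_mem_filter_univ] at hc'
      obtain ⟨⟨x, hx⟩, hfix⟩ := hc'
      have hx' : (x : G) • w = c' := hx
      constructor
      · rw [hB]
        refine ⟨i, Finset.mem_range.mp hi, x, x.2, ?_⟩
        rw [mul_smul, hx']
      · have h1 : u • z ^ i • c' = z ^ i • ((z ^ i)⁻¹ * u * z ^ i) • c' := by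
          simp only [mul_smul, smul_inv_smul]
        rw [h1, hfix]
  rw [hset, Finset.prod_biUnion]
  · apply Finset.prod_congr rfl
    intro i hi
    rw [Finset.prod_image (fun a _ b _ h => MulAction.injective (z ^ i) h), hterm i]
    apply Finset.prod_congr rfl
    intro c' hc'
    rw [wy_mem_filter_univ] at hc'
    have hmem : c'.out⁻¹ * ((z ^ i)⁻¹ * u * z ^ i) * c'.out ∈ H :=
      (smul_eq_iff_conj_mem _ c').mp hc'.2
    have e : c'.out⁻¹ * ((z ^ i)⁻¹ * u * z ^ i) * c'.out =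
        (z ^ i * c'.out)⁻¹ * u * (z ^ i * c'.out) := by group
    rw [e]
    apply wy_psi_out ϕ (z ^ i • c') (z ^ i * c'.out) u
    · show ((z ^ i * c'.out : G) : G ⧸ H) = z ^ i • c'
      conv_rhs => rw [← QuotientGroup.out_eq' c']
      rfl
    · rw [← e]; exact hmem
  · intro i hi j hj hij
    rw [Function.onFun, Finset.disjoint_left]
    intro c hci hcj
    rw [Finset.mem_image] at hci hcj
    obtain ⟨c1, hc1, rfl⟩ := hci
    obtain ⟨c2, hc2, h⟩ := hcj
    rw [wy_mem_filter_univ] at hc1 hc2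
    obtain ⟨⟨x1, hx1⟩, -⟩ := hc1
    obtain ⟨⟨x2, hx2⟩, -⟩ := hc2
    have hx1' : (x1 : G) • w = c1 := hx1
    have hx2' : (x2 : G) • w = c2 := hx2
    apply hij
    apply hdisj i j (Finset.mem_range.mp hi) (Finset.mem_range.mp hj) x1 x1.2 x2 x2.2
    rw [mul_smul, mul_smul, hx1', hx2']
    exact h.symm


theorem wy_conj_pow_mem {G : Type*} [Group G] (X : Subgroup G) (z : G)
    (hzX : ∀ x ∈ X, z⁻¹ * x * z ∈ X) (i : ℕ) (x : G) (hx : x ∈ X) :
    (z ^ i)⁻¹ * x * z ^ i ∈ X := by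
  induction i with
  | zero => simpa using hx
  | succ i ih =>
    have h1 := hzX _ ih
    have e : (z ^ (i + 1))⁻¹ * x * z ^ (i + 1) = z⁻¹ * ((z ^ i)⁻¹ * x * z ^ i) * z := by
      rw [pow_succ]; group
    rw [e]; exact h1

open Classical in
/-- **Core of the Wielandt–Yoshida transfer theorem.**  Let `W` be weakly closed in the Sylow
`p`-subgroup `S` and assume that no iterated commutator `[x, z; p-1]` (`x ∈ S`, `z ∈ W`) lies in a
maximal subgroup `W₀` of `W` but outside `Φ(W₀)`.  Then for every homomorphism `lam` from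
`N_G(W)` to a commutative group of exponent `p`, the transfer of `lam` agrees with `lam` on `S`. -/
theorem wy_transfer_eq {G : Type*} [Group G] [Finite G] {p : ℕ} [Fact p.Prime] (S : Sylow p G)
    (W : Subgroup G) (hW : Cfsg.IsWeaklyClosed W (S : Subgroup G))
    (hreg : ∀ x ∈ (S : Subgroup G), ∀ z ∈ W, ∀ W₀ : Subgroup ↥W, IsCoatom W₀ →
      (fun y : G => y⁻¹ * z⁻¹ * y * z)^[p - 1] x ∈ W₀.map W.subtype →
      (fun y : G => y⁻¹ * z⁻¹ * y * z)^[p - 1] x ∈
        ((frattini ↥W₀).map W₀.subtype).map W.subtype)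
    {A : Type*} [CommGroup A] (hA : ∀ a : A, a ^ p = 1)
    (lam : ↥(Subgroup.normalizer (W : Set G)) →* A) :
    ∀ (n : ℕ) (u : G), u ∈ (S : Subgroup G) → orderOf u = n →
      MonoidHom.transfer lam u = psi lam u := by
  have hp : p.Prime := Fact.out
  have hSH : (S : Subgroup G) ≤ Subgroup.normalizer (W : Set G) := by
    intro x hx
    exact Cfsg.Agent.Helper2.mem_normalizer_of_weaklyClosed hW x
      (fun z hz => (S : Subgroup G).mul_mem ((S : Subgroup G).mul_mem hx (hW.1 hz))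
        ((S : Subgroup G).inv_mem hx))
  have hWH : W ≤ Subgroup.normalizer (W : Set G) := Subgroup.le_normalizer
  letI : Fintype (G ⧸ Subgroup.normalizer (W : Set G)) := Fintype.ofFinite _
  have hconjW : ∀ n ∈ Subgroup.normalizer (W : Set G), ∀ b ∈ W, n⁻¹ * b * n ∈ W := by
    intro n hn b hb
    have h1 := (Subgroup.mem_normalizer_iff.mp
      ((Subgroup.normalizer (W : Set G)).inv_mem hn) b).mp hb
    rwa [inv_inv] at h1
  -- `W` fixes only the trivial coset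
  have hfixW : ∀ c : G ⧸ Subgroup.normalizer (W : Set G), (∀ b ∈ W, b • c = c) →
      c = ((1 : G) : G ⧸ Subgroup.normalizer (W : Set G)) := by
    intro c hc
    set g := c.out with hg
    have hgc : (g : G ⧸ Subgroup.normalizer (W : Set G)) = c := QuotientGroup.out_eq' c
    have h1 : ∀ b ∈ W, g⁻¹ * b * g ∈ Subgroup.normalizer (W : Set G) := by
      intro b hb
      have := hc b hb
      rw [← hgc] at this
      exact (wy_smul_mk_iff b g).mp this
    let Q : Subgroup G := W.map (MulAut.conj g⁻¹).toMonoidHom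
    have hQmem : ∀ q ∈ Q, ∃ b ∈ W, q = g⁻¹ * b * g := by
      rintro q ⟨b, hb, rfl⟩
      exact ⟨b, hb, by simp⟩
    have hQH : Q ≤ Subgroup.normalizer (W : Set G) := by
      intro q hq
      obtain ⟨b, hb, rfl⟩ := hQmem q hq
      exact h1 b hb
    have hQp : IsPGroup p Q := (S.2.to_le hW.1).map _
    obtain ⟨n, hn, hnQ⟩ := wy_conj_into_sylow S _ Q hSH hQH hQp
    have h2 : (g * n)⁻¹ ∈ Subgroup.normalizer (W : Set G) := by
      apply Cfsg.Agent.Helper2.mem_normalizer_of_weaklyClosed hW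
      intro b hb
      have := hnQ (g⁻¹ * b * g) ⟨b, hb, by simp⟩
      have e : (g * n)⁻¹ * b * ((g * n)⁻¹)⁻¹ = n⁻¹ * (g⁻¹ * b * g) * n := by group
      rw [e]; exact this
    have h3 : g ∈ Subgroup.normalizer (W : Set G) := by
      have h4 := (Subgroup.normalizer (W : Set G)).mul_mem
        ((Subgroup.normalizer (W : Set G)).inv_mem h2)
        ((Subgroup.normalizer (W : Set G)).inv_mem hn)
      simpa using h4
    rw [← hgc]
    apply QuotientGroup.eq.mpr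
    simpa using h3
  intro n
  induction n using Nat.strong_induction_on with
  | _ n IH =>
  intro u hu hn
  have huH : u ∈ Subgroup.normalizer (W : Set G) := hSH hu
  have hordpos : 0 < orderOf u := orderOf_pos u
  obtain ⟨j, hj⟩ : ∃ j, orderOf u = p ^ j := by
    obtain ⟨k, hk⟩ := S.isPGroup' ⟨u, hu⟩
    have h1 : u ^ p ^ k = 1 := by
      have := congrArg Subtype.val hk
      simpa using this
    obtain ⟨j, -, hj⟩ := (Nat.dvd_prime_pow hp).mp (orderOf_dvd_of_pow_eq_one h1)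
    exact ⟨j, hj⟩
  -- conjugates of proper powers are killed
  have hlow : ∀ (k : G) (f : ℕ), f ∣ orderOf u → f ≠ 1 →
      k⁻¹ * u ^ f * k ∈ Subgroup.normalizer (W : Set G) → psi lam (k⁻¹ * u ^ f * k) = 1 := by
    intro k f hf hf1 hmem
    have hf' := hf
    rw [hj] at hf'
    obtain ⟨i, hij, rfl⟩ := (Nat.dvd_prime_pow hp).mp hf'
    have hi0 : i ≠ 0 := by
      rintro rfl
      exact hf1 (pow_zero p)
    have hcord : orderOf (k⁻¹ * u ^ p ^ i * k) = p ^ (j - i) := by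
      rw [wy_orderOf_conj, orderOf_pow, Nat.gcd_eq_right hf, hj, Nat.pow_div hij hp.pos]
    have hcp : IsPGroup p (zpowers (k⁻¹ * u ^ p ^ i * k)) := by
      apply IsPGroup.of_card (n := j - i)
      rw [Nat.card_zpowers, hcord]
    obtain ⟨h, hh, hhc⟩ := wy_conj_into_sylow S _ (zpowers (k⁻¹ * u ^ p ^ i * k)) hSH
      ((zpowers_le).mpr hmem) hcp
    have hv : h⁻¹ * (k⁻¹ * u ^ p ^ i * k) * h ∈ (S : Subgroup G) := hhc _ (mem_zpowers _)
    have hlt : orderOf (h⁻¹ * (k⁻¹ * u ^ p ^ i * k) * h) < n := by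
      rw [wy_orderOf_conj, hcord, ← hn, hj]
      exact Nat.pow_lt_pow_right hp.one_lt (by omega)
    have hIH := IH _ hlt (h⁻¹ * (k⁻¹ * u ^ p ^ i * k) * h) hv rfl
    rw [psi_conj lam hmem hh] at hIH
    rw [← hIH]
    have e : h⁻¹ * (k⁻¹ * u ^ p ^ i * k) * h = (k * h)⁻¹ * u ^ p ^ i * (k * h) := by group
    rw [e, map_mul, map_mul, map_inv, map_pow, mul_comm, ← mul_assoc, mul_inv_cancel, one_mul]
    obtain ⟨m, hm⟩ : p ∣ p ^ i := dvd_pow_self p hi0
    rw [hm, pow_mul, hA, one_pow]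
  -- Step A: the transfer is the product over the fixed cosets
  have hA1 := transfer_eq_prod_fixed lam u (by
    intro c hc
    apply hlow c.out _ _ hc (QuotientGroup.out_conj_pow_minimalPeriod_mem _ u c)
    rw [← MulAction.period_eq_minimalPeriod]
    exact MulAction.period_dvd_orderOf u c)
  rw [hA1]
  -- Step B: split off the trivial coset
  have hfix1 : u • ((1 : G) : G ⧸ Subgroup.normalizer (W : Set G)) =
      ((1 : G) : G ⧸ Subgroup.normalizer (W : Set G)) :=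
    (wy_smul_mk_iff u 1).mpr (by simpa using huH)
  have hv1 : psi lam ((((1 : G) : G ⧸ Subgroup.normalizer (W : Set G))).out⁻¹ * u *
      (((1 : G) : G ⧸ Subgroup.normalizer (W : Set G))).out) = psi lam u := by
    have := wy_psi_out lam ((1 : G) : G ⧸ Subgroup.normalizer (W : Set G)) 1 u rfl
      (by simpa using huH)
    simpa using this
  have hmem1 : ((1 : G) : G ⧸ Subgroup.normalizer (W : Set G)) ∈
      Finset.univ.filter (fun c : G ⧸ Subgroup.normalizer (W : Set G) => u • c = c) :=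
    (wy_mem_filter_univ _ _).mpr hfix1
  rw [← Finset.mul_prod_erase _ _ hmem1, hv1]
  suffices hrest : ∏ c ∈ (Finset.univ.filter
      (fun c : G ⧸ Subgroup.normalizer (W : Set G) => u • c = c)).erase
        ((1 : G) : G ⧸ Subgroup.normalizer (W : Set G)), psi lam (c.out⁻¹ * u * c.out) = 1 by
    rw [hrest, mul_one]
  rw [← Finset.prod_fiberwise _ (fun c => (Quotient.mk'' c :
    MulAction.orbitRel.Quotient W (G ⧸ Subgroup.normalizer (W : Set G)))) _]
  apply Finset.prod_eq_one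
  intro O _
  rcases (((Finset.univ.filter
      (fun c : G ⧸ Subgroup.normalizer (W : Set G) => u • c = c)).erase
        ((1 : G) : G ⧸ Subgroup.normalizer (W : Set G))).filter (fun c => (Quotient.mk'' c :
    MulAction.orbitRel.Quotient W (G ⧸ Subgroup.normalizer (W : Set G))) = O)).eq_empty_or_nonempty
    with hemp | ⟨w, hw⟩
  · rw [hemp, Finset.prod_empty]
  rw [Finset.mem_filter, Finset.mem_erase, wy_mem_filter_univ] at hw
  obtain ⟨⟨hw1, hwu⟩, hwO⟩ := hw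
  -- the fibre is the set of `u`-fixed points in the `W`-orbit of `w`
  have hsO : ((Finset.univ.filter
      (fun c : G ⧸ Subgroup.normalizer (W : Set G) => u • c = c)).erase
        ((1 : G) : G ⧸ Subgroup.normalizer (W : Set G))).filter (fun c => (Quotient.mk'' c :
      MulAction.orbitRel.Quotient W (G ⧸ Subgroup.normalizer (W : Set G))) = O) =
      Finset.univ.filter (fun c : G ⧸ Subgroup.normalizer (W : Set G) =>
        c ∈ MulAction.orbit W w ∧ u • c = c) := by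
    ext c
    rw [Finset.mem_filter, Finset.mem_erase, wy_mem_filter_univ, wy_mem_filter_univ, ← hwO]
    constructor
    · rintro ⟨⟨-, hcu⟩, hcO⟩
      exact ⟨Quotient.eq''.mp hcO, hcu⟩
    · rintro ⟨hcO, hcu⟩
      refine ⟨⟨?_, hcu⟩, Quotient.eq''.mpr hcO⟩
      rintro rfl
      apply hw1
      obtain ⟨b, hb⟩ := hcO
      have hb' : (b : G) • w = ((1 : G) : G ⧸ Subgroup.normalizer (W : Set G)) := hb
      have h2 : w = (b : G)⁻¹ • ((1 : G) : G ⧸ Subgroup.normalizer (W : Set G)) := by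
        rw [← hb', inv_smul_smul]
      rw [h2]
      exact (wy_smul_mk_iff _ 1).mpr (by
        simpa using (Subgroup.normalizer (W : Set G)).inv_mem (hWH b.2))
  rw [hsO]
  -- the group `U = W⟨u⟩`
  have hun : zpowers u ≤ Subgroup.normalizer (W : Set G) := (zpowers_le).mpr huH
  have hUS : W ⊔ zpowers u ≤ (S : Subgroup G) := sup_le hW.1 ((zpowers_le).mpr hu)
  have hUmem : ∀ a ∈ W ⊔ zpowers u, ∃ b ∈ W, a • w = b • w := by
    intro a ha
    have hcoe := Subgroup.coe_mul_of_right_le_normalizer_left W (zpowers u) hun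
    have ha' : a ∈ ((W : Set G) * (zpowers u : Set G)) := by rw [← hcoe]; exact ha
    obtain ⟨b, hb, c, hc, rfl⟩ := Set.mem_mul.mp ha'
    refine ⟨b, hb, ?_⟩
    rw [mul_smul]
    congr 1
    have h1 : zpowers u ≤ MulAction.stabilizer G w := (zpowers_le).mpr hwu
    exact h1 hc
  have hΓ : IsPGroup p ↥(W ⊔ zpowers u) := S.2.to_le hUS
  have hWU : ∀ b ∈ W, b ∈ W ⊔ zpowers u := fun b hb => le_sup_left (a := W) hb
  have huU : u ∈ W ⊔ zpowers u := le_sup_right (a := W) (mem_zpowers u)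
  have hE : (MulAction.stabilizer ↥(W ⊔ zpowers u) w) ≠ ⊤ := by
    intro hE
    apply hw1
    apply hfixW
    intro b hb
    have h1 : (⟨b, hWU b hb⟩ : ↥(W ⊔ zpowers u)) ∈ MulAction.stabilizer ↥(W ⊔ zpowers u) w :=
      hE ▸ Subgroup.mem_top _
    exact h1
  obtain ⟨D, hED, hDn, hDidx⟩ := Cfsg.Agent.Helper19.exists_normal_index_p_of_ne_top hΓ hE
  have hz : ∃ z, ∃ hz : z ∈ W, (⟨z, hWU z hz⟩ : ↥(W ⊔ zpowers u)) ∉ D := by
    by_contra hcon
    push Not at hcon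
    have hDtop : D = ⊤ := by
      rw [eq_top_iff]
      rintro ⟨a, ha⟩ -
      obtain ⟨b, hb, hab⟩ := hUmem a ha
      have h1 : (⟨b, hWU b hb⟩ : ↥(W ⊔ zpowers u))⁻¹ * ⟨a, ha⟩ ∈
          MulAction.stabilizer ↥(W ⊔ zpowers u) w := by
        show ((⟨b, hWU b hb⟩ : ↥(W ⊔ zpowers u))⁻¹ * ⟨a, ha⟩) • w = w
        rw [mul_smul]
        have h2 : (⟨a, ha⟩ : ↥(W ⊔ zpowers u)) • w = (⟨b, hWU b hb⟩ : ↥(W ⊔ zpowers u)) • w := hab
        rw [h2, inv_smul_smul]
      have h2 := D.mul_mem (hcon b hb) (hED h1)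
      simpa using h2
    rw [hDtop, Subgroup.index_top] at hDidx
    exact hp.one_lt.ne hDidx
  obtain ⟨z, hzW, hzD⟩ := hz
  obtain ⟨hcos1, hcos2⟩ := wy_index_p_cosets D hDidx ⟨z, hWU z hzW⟩ hzD
  have hzU : z ∈ W ⊔ zpowers u := hWU z hzW
  -- the subgroup `X`
  have hXmem : ∀ x : G, x ∈ D.map (W ⊔ zpowers u).subtype ↔
      ∃ hx : x ∈ W ⊔ zpowers u, (⟨x, hx⟩ : ↥(W ⊔ zpowers u)) ∈ D := by
    intro x
    constructor
    · rintro ⟨d, hd, rfl⟩
      exact ⟨d.2, hd⟩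
    · rintro ⟨hx, hd⟩
      exact ⟨⟨x, hx⟩, hd, rfl⟩
  have huX : u ∈ D.map (W ⊔ zpowers u).subtype := (hXmem u).mpr ⟨huU, hED hwu⟩
  have hzX : ∀ x ∈ D.map (W ⊔ zpowers u).subtype, z⁻¹ * x * z ∈ D.map (W ⊔ zpowers u).subtype := by
    intro x hx
    obtain ⟨hxU, hxD⟩ := (hXmem x).mp hx
    refine (hXmem _).mpr ⟨(W ⊔ zpowers u).mul_mem ((W ⊔ zpowers u).mul_mem
      ((W ⊔ zpowers u).inv_mem hzU) hxU) hzU, ?_⟩
    have h1 := hDn.conj_mem _ hxD (⟨z, hzU⟩ : ↥(W ⊔ zpowers u))⁻¹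
    have e : (⟨z⁻¹ * x * z, (W ⊔ zpowers u).mul_mem ((W ⊔ zpowers u).mul_mem
        ((W ⊔ zpowers u).inv_mem hzU) hxU) hzU⟩ : ↥(W ⊔ zpowers u)) =
        (⟨z, hzU⟩ : ↥(W ⊔ zpowers u))⁻¹ * ⟨x, hxU⟩ * (⟨z, hzU⟩ : ↥(W ⊔ zpowers u))⁻¹⁻¹ := by
      apply Subtype.ext
      simp
    rw [e]
    exact h1
  have hB : ∀ c, c ∈ MulAction.orbit W w ↔
      ∃ i < p, ∃ x ∈ D.map (W ⊔ zpowers u).subtype, c = (z ^ i * x) • w := by
    intro c
    constructor
    · rintro ⟨b, rfl⟩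
      obtain ⟨i, hi, hD'⟩ := hcos1 ⟨(b : G), hWU _ b.2⟩
      have hmemU : (z ^ i)⁻¹ * (b : G) ∈ W ⊔ zpowers u :=
        (W ⊔ zpowers u).mul_mem ((W ⊔ zpowers u).inv_mem ((W ⊔ zpowers u).pow_mem hzU i))
          (hWU _ b.2)
      refine ⟨i, hi, (z ^ i)⁻¹ * (b : G), (hXmem _).mpr ⟨hmemU, ?_⟩, ?_⟩
      · have e : (⟨(z ^ i)⁻¹ * (b : G), hmemU⟩ : ↥(W ⊔ zpowers u)) =
            ((⟨z, hzU⟩ : ↥(W ⊔ zpowers u)) ^ i)⁻¹ * ⟨(b : G), hWU _ b.2⟩ := by
          apply Subtype.ext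
          simp
        rw [e]
        exact hD'
      · show (b : G) • w = _
        rw [mul_inv_cancel_left]
    · rintro ⟨i, hi, x, hx, rfl⟩
      obtain ⟨hxU, -⟩ := (hXmem x).mp hx
      obtain ⟨b, hb, hab⟩ := hUmem (z ^ i * x)
        ((W ⊔ zpowers u).mul_mem ((W ⊔ zpowers u).pow_mem hzU i) hxU)
      rw [hab]
      exact ⟨⟨b, hb⟩, rfl⟩
  have hdisj : ∀ i j, i < p → j < p → ∀ x ∈ D.map (W ⊔ zpowers u).subtype,
      ∀ x' ∈ D.map (W ⊔ zpowers u).subtype, (z ^ i * x) • w = (z ^ j * x') • w → i = j := by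
    intro i j hi hj x hx x' hx' h
    obtain ⟨hxU, hxD⟩ := (hXmem x).mp hx
    obtain ⟨hxU', hxD'⟩ := (hXmem x').mp hx'
    have h1 : (((⟨z, hzU⟩ : ↥(W ⊔ zpowers u)) ^ j * ⟨x', hxU'⟩)⁻¹ *
        ((⟨z, hzU⟩ : ↥(W ⊔ zpowers u)) ^ i * ⟨x, hxU⟩)) ∈
        MulAction.stabilizer ↥(W ⊔ zpowers u) w := by
      rw [MulAction.mem_stabilizer_iff, mul_smul]
      have h2 : ((⟨z, hzU⟩ : ↥(W ⊔ zpowers u)) ^ i * ⟨x, hxU⟩) • w =
          ((⟨z, hzU⟩ : ↥(W ⊔ zpowers u)) ^ j * ⟨x', hxU'⟩) • w := by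
        exact h
      rw [h2, inv_smul_smul]
    have h3 := hED h1
    have h4 : ((⟨z, hzU⟩ : ↥(W ⊔ zpowers u)) ^ j)⁻¹ * (⟨z, hzU⟩ : ↥(W ⊔ zpowers u)) ^ i ∈ D := by
      have e : ((⟨z, hzU⟩ : ↥(W ⊔ zpowers u)) ^ j)⁻¹ * (⟨z, hzU⟩ : ↥(W ⊔ zpowers u)) ^ i =
          ⟨x', hxU'⟩ * (((⟨z, hzU⟩ : ↥(W ⊔ zpowers u)) ^ j * ⟨x', hxU'⟩)⁻¹ *
            ((⟨z, hzU⟩ : ↥(W ⊔ zpowers u)) ^ i * ⟨x, hxU⟩)) *
            (⟨x, hxU⟩ : ↥(W ⊔ zpowers u))⁻¹ := by group
      rw [e]
      exact D.mul_mem (D.mul_mem hxD' h3) (D.inv_mem hxD)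
    exact (hcos2 j i hj hi h4).symm
  -- apply the block lemma
  obtain ⟨τ, hτX, hτ⟩ := wy_block (Subgroup.normalizer (W : Set G)) lam
    (D.map (W ⊔ zpowers u).subtype) z u w hzX huX (MulAction.orbit W w) hB hdisj hlow
  rw [hτ]
  -- iterated commutators
  have hFX : ∀ k : ℕ, (fun y : G => y⁻¹ * z⁻¹ * y * z)^[k] u ∈ D.map (W ⊔ zpowers u).subtype := by
    intro k
    induction k with
    | zero => exact huX
    | succ k ih =>
      rw [Function.iterate_succ_apply']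
      have h1 := hzX _ ih
      have e : ((fun y : G => y⁻¹ * z⁻¹ * y * z)^[k] u)⁻¹ * z⁻¹ *
          ((fun y : G => y⁻¹ * z⁻¹ * y * z)^[k] u) * z =
          ((fun y : G => y⁻¹ * z⁻¹ * y * z)^[k] u)⁻¹ *
            (z⁻¹ * ((fun y : G => y⁻¹ * z⁻¹ * y * z)^[k] u) * z) := by group
      show ((fun y : G => y⁻¹ * z⁻¹ * y * z)^[k] u)⁻¹ * z⁻¹ *
          ((fun y : G => y⁻¹ * z⁻¹ * y * z)^[k] u) * z ∈ D.map (W ⊔ zpowers u).subtype
      rw [e]
      exact (D.map (W ⊔ zpowers u).subtype).mul_mem ((D.map (W ⊔ zpowers u).subtype).inv_mem ih) h1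
  have hzi := wy_conj_pow_mem (D.map (W ⊔ zpowers u).subtype) z hzX
  have hfd := wy_fd hA
    (fun k j => psi τ ((z ^ j)⁻¹ * (fun y : G => y⁻¹ * z⁻¹ * y * z)^[k] u * z ^ j)) (by
    intro k j
    show psi τ ((z ^ j)⁻¹ * (fun y : G => y⁻¹ * z⁻¹ * y * z)^[k + 1] u * z ^ j) =
      (psi τ ((z ^ j)⁻¹ * (fun y : G => y⁻¹ * z⁻¹ * y * z)^[k] u * z ^ j))⁻¹ *
        psi τ ((z ^ (j + 1))⁻¹ * (fun y : G => y⁻¹ * z⁻¹ * y * z)^[k] u * z ^ (j + 1))
    rw [Function.iterate_succ_apply', ← wy_psi_inv τ (hzi j _ (hFX k)),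
      ← psi_mul τ ((D.map (W ⊔ zpowers u).subtype).inv_mem (hzi j _ (hFX k)))
        (hzi (j + 1) _ (hFX k))]
    congr 1
    rw [pow_succ]
    group)
  have hfd' : ∏ i ∈ Finset.range p, psi τ ((z ^ i)⁻¹ * u * z ^ i) =
      psi τ ((fun y : G => y⁻¹ * z⁻¹ * y * z)^[p - 1] u) := by
    have h1 : psi τ ((z ^ 0)⁻¹ * (fun y : G => y⁻¹ * z⁻¹ * y * z)^[p - 1] u * z ^ 0) =
        ∏ i ∈ Finset.range p, psi τ ((z ^ i)⁻¹ * (fun y : G => y⁻¹ * z⁻¹ * y * z)^[0] u * z ^ i) :=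
      hfd
    rw [pow_zero, inv_one, one_mul, mul_one] at h1
    rw [h1]
    rfl
  rw [hfd']
  -- the iterated commutator lies in `W`
  have hFW : ∀ k : ℕ, (fun y : G => y⁻¹ * z⁻¹ * y * z)^[k + 1] u ∈ W := by
    intro k
    induction k with
    | zero =>
      show u⁻¹ * z⁻¹ * u * z ∈ W
      exact W.mul_mem (hconjW u huH z⁻¹ (W.inv_mem hzW)) hzW
    | succ k ih =>
      rw [Function.iterate_succ_apply']
      exact W.mul_mem (W.mul_mem (W.mul_mem (W.inv_mem ih) (W.inv_mem hzW)) ih) hzW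
  have hfX : (fun y : G => y⁻¹ * z⁻¹ * y * z)^[p - 1] u ∈ D.map (W ⊔ zpowers u).subtype :=
    hFX (p - 1)
  have hfW : (fun y : G => y⁻¹ * z⁻¹ * y * z)^[p - 1] u ∈ W := by
    have h1 : p - 1 = (p - 2) + 1 := by have := hp.two_le; omega
    rw [h1]; exact hFW (p - 2)
  -- the maximal subgroup `W₀ = W ∩ X` of `W`
  have hW₀ : IsCoatom ((D.map (W ⊔ zpowers u).subtype).subgroupOf W) := by
    constructor
    · intro htop
      have h1 : (⟨z, hzW⟩ : W) ∈ (D.map (W ⊔ zpowers u).subtype).subgroupOf W :=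
        htop ▸ Subgroup.mem_top _
      have hzX' : z ∈ D.map (W ⊔ zpowers u).subtype := Subgroup.mem_subgroupOf.mp h1
      obtain ⟨_, hzD'⟩ := (hXmem z).mp hzX'
      exact hzD hzD'
    · intro K hK
      obtain ⟨k, hkK, hkW₀⟩ := SetLike.exists_of_lt hK
      have hkU : (k : G) ∈ W ⊔ zpowers u := hWU _ k.2
      have hkD : (⟨(k : G), hkU⟩ : ↥(W ⊔ zpowers u)) ∉ D := by
        intro h
        apply hkW₀
        exact Subgroup.mem_subgroupOf.mpr ((hXmem _).mpr ⟨hkU, h⟩)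
      obtain ⟨hk1, -⟩ := wy_index_p_cosets D hDidx ⟨(k : G), hkU⟩ hkD
      rw [eq_top_iff]
      intro b _
      obtain ⟨i, -, hi⟩ := hk1 ⟨(b : G), hWU _ b.2⟩
      have h1 : (k ^ i)⁻¹ * b ∈ (D.map (W ⊔ zpowers u).subtype).subgroupOf W := by
        apply Subgroup.mem_subgroupOf.mpr
        apply (hXmem _).mpr
        refine ⟨hWU _ ((k ^ i)⁻¹ * b).2, ?_⟩
        exact hi
      have h2 := K.mul_mem (K.pow_mem hkK i) (hK.le h1)
      simpa using h2
  have hfW₀ : (fun y : G => y⁻¹ * z⁻¹ * y * z)^[p - 1] u ∈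
      ((D.map (W ⊔ zpowers u).subtype).subgroupOf W).map W.subtype :=
    ⟨⟨_, hfW⟩, Subgroup.mem_subgroupOf.mpr hfX, rfl⟩
  obtain ⟨f1, hf1, hf1e⟩ := hreg u hu z hzW _ hW₀ hfW₀
  obtain ⟨f0, hf0, hf0e⟩ := hf1
  let incl : ↥((D.map (W ⊔ zpowers u).subtype).subgroupOf W) →* ↥(D.map (W ⊔ zpowers u).subtype) :=
    { toFun := fun a => ⟨((a : ↥W) : G), Subgroup.mem_subgroupOf.mp a.2⟩
      map_one' := rfl
      map_mul' := fun a b => rfl }
  have hker := Cfsg.Agent.Helper47.frattini_le_ker p (τ.comp incl) (fun x => hA _)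
  have h1 : (τ.comp incl) f0 = 1 := hker hf0
  rw [psi_of_mem τ hfX]
  have e : (⟨_, hfX⟩ : ↥(D.map (W ⊔ zpowers u).subtype)) = incl f0 := by
    apply Subtype.ext
    show (fun y : G => y⁻¹ * z⁻¹ * y * z)^[p - 1] u = ((f0 : ↥W) : G)
    rw [← hf1e, ← hf0e]
    rfl
  rw [e]
  exact h1

end Cfsg.Agent.Helper68
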