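import Mathlib
import Cfsg.Prelude.Def_Transfer
import Cfsg.Agent.Helper68.WYCore
import Cfsg.Agent.Helper51.HWTate

set_option autoImplicit false

/-!
Helper68: the Wielandt–Yoshida transfer theorem for a weakly closed subgroup, focal form.
-/

namespace Cfsg.Agent.Helper68

open Subgroup
open Cfsg.Agent.Helper70 (psi psi_of_mem)

universe u

/-- In a commutative group the elements of `O^p` have order prime to `p`. -/
theorem wy_coprime_of_mem_pResidual {C : Type*} [CommGroup C] {p : ℕ} {x : C}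
    (hx : x ∈ Cfsg.pResidual p C) : Nat.Coprime (orderOf x) p := by
  let B : Subgroup C :=
    { carrier := {x | Nat.Coprime (orderOf x) p}
      one_mem' := by simp
      mul_mem' := by
        intro x y hx hy
        have h1 : orderOf (x * y) ∣ Nat.lcm (orderOf x) (orderOf y) :=
          (Commute.all x y).orderOf_mul_dvd_lcm
        exact Nat.Coprime.coprime_dvd_left h1
          (Nat.Coprime.coprime_dvd_left (Nat.lcm_dvd_mul _ _) (Nat.Coprime.mul_left hx hy))
      inv_mem' := by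
        intro x hx
        simpa using hx }
  have hR : Cfsg.pResidual p C ≤ B := by
    rw [Cfsg.pResidual, closure_le]
    intro g hg
    exact hg
  exact hR hx

/-- If `S ≤ N` and `N ∩ O^p(G) ≤ O^p(N)` then `S ∩ G' ≤ N'`. -/
theorem wy_focal_of_residual {G : Type*} [Group G] [Finite G] {p : ℕ} [Fact p.Prime]
    (S : Sylow p G) (N : Subgroup G) (hSN : (S : Subgroup G) ≤ N)
    (hres : N ⊓ Cfsg.pResidual p G ≤ (Cfsg.pResidual p N).map N.subtype) :
    (S : Subgroup G) ⊓ commutator G ≤ ⁅N, N⁆ := by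
  haveI := Cfsg.Agent.Helper2.pResidual_normal p G
  rintro x ⟨hxS, hxG⟩
  have hxN : x ∈ N := hSN hxS
  let a : N →* Abelianization N := Abelianization.of
  let B' : Subgroup (Abelianization N) := (Cfsg.pResidual p N).map a
  let π : N →* Abelianization N ⧸ B' := (QuotientGroup.mk' B').comp a
  let f : N →* G ⧸ Cfsg.pResidual p G :=
    (QuotientGroup.mk' (Cfsg.pResidual p G)).comp N.subtype
  have hf : Function.Surjective f := by
    intro q
    obtain ⟨g, rfl⟩ := QuotientGroup.mk'_surjective _ q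
    obtain ⟨t, ht, r, hr, rfl⟩ := Cfsg.Agent.Helper2.exists_mul_of_sylow_pResidual S g
    refine ⟨⟨t, hSN ht⟩, ?_⟩
    show (QuotientGroup.mk' (Cfsg.pResidual p G)) t =
      (QuotientGroup.mk' (Cfsg.pResidual p G)) (t * r)
    have hr1 : (QuotientGroup.mk' (Cfsg.pResidual p G)) r = 1 := (QuotientGroup.eq_one_iff r).mpr hr
    rw [map_mul, hr1, mul_one]
  have hker : f.ker ≤ π.ker := by
    intro y hy
    have h1 : (y : G) ∈ Cfsg.pResidual p G := (QuotientGroup.eq_one_iff _).mp hy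
    obtain ⟨y', hy', hyy⟩ := hres ⟨y.2, h1⟩
    have e : y' = y := Subtype.ext hyy
    rw [e] at hy'
    rw [MonoidHom.mem_ker]
    show (QuotientGroup.mk' B') (a y) = 1
    exact (QuotientGroup.eq_one_iff _).mpr ⟨y, hy', rfl⟩
  let Ψ₀ : G ⧸ Cfsg.pResidual p G →* Abelianization N ⧸ B' :=
    f.liftOfSurjective hf ⟨π, hker⟩
  have hΨ₀ : ∀ y : N, Ψ₀ (f y) = π y := fun y =>
    MonoidHom.liftOfRightInverse_comp_apply f _ _ ⟨π, hker⟩ y
  let Ψ : G →* Abelianization N ⧸ B' := Ψ₀.comp (QuotientGroup.mk' (Cfsg.pResidual p G))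
  have h1 : Ψ x = 1 := MonoidHom.mem_ker.mp (Abelianization.commutator_subset_ker Ψ hxG)
  have h2 : π ⟨x, hxN⟩ = 1 := by
    rw [← hΨ₀]
    exact h1
  have h3 : a ⟨x, hxN⟩ ∈ B' := (QuotientGroup.eq_one_iff _).mp h2
  have h4 : Nat.Coprime (orderOf (a ⟨x, hxN⟩)) p :=
    wy_coprime_of_mem_pResidual (Cfsg.Agent.Helper2.map_pResidual_le a p h3)
  obtain ⟨k, hk⟩ := S.2 ⟨x, hxS⟩
  have hk' : x ^ (p ^ k) = 1 := by
    have := congrArg Subtype.val hk
    simpa using this
  have h5 : orderOf (a ⟨x, hxN⟩) ∣ p ^ k := by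
    apply orderOf_dvd_of_pow_eq_one
    rw [← map_pow]
    have e : (⟨x, hxN⟩ : N) ^ p ^ k = 1 := by
      apply Subtype.ext
      simpa using hk'
    rw [e, map_one]
  have h6 : orderOf (a ⟨x, hxN⟩) = 1 :=
    Nat.Coprime.eq_one_of_dvd (Nat.Coprime.pow_right k h4) h5
  rw [orderOf_eq_one_iff] at h6
  have h7 : (⟨x, hxN⟩ : N) ∈ commutator N := by
    rw [← Abelianization.ker_of]
    exact h6
  rw [← Subgroup.map_subtype_commutator]
  exact ⟨⟨x, hxN⟩, h7, rfl⟩

/-- **Wielandt–Yoshida** for a weakly closed subgroup `W` of the Sylow `p`-subgroup `S`: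
if no iterated commutator `[x, z; p-1]` (`x ∈ S`, `z ∈ W`) lies in a maximal subgroup `W₀` of `W`
but outside `Φ(W₀)`, then `N_G(W)` controls `p`-transfer: `S ∩ G' = S ∩ N_G(W)'`. -/
theorem wy_focal {G : Type u} [Group G] [Finite G] {p : ℕ} [Fact p.Prime] (S : Sylow p G)
    (W : Subgroup G) (hW : Cfsg.IsWeaklyClosed W (S : Subgroup G))
    (hreg : ∀ x ∈ (S : Subgroup G), ∀ z ∈ W, ∀ W₀ : Subgroup ↥W, IsCoatom W₀ →
      (fun y : G => y⁻¹ * z⁻¹ * y * z)^[p - 1] x ∈ W₀.map W.subtype →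
      (fun y : G => y⁻¹ * z⁻¹ * y * z)^[p - 1] x ∈
        ((frattini ↥W₀).map W₀.subtype).map W.subtype) :
    (S : Subgroup G) ⊓ commutator G =
      (S : Subgroup G) ⊓ ⁅Subgroup.normalizer (W : Set G), Subgroup.normalizer (W : Set G)⁆ := by
  have hSH : (S : Subgroup G) ≤ Subgroup.normalizer (W : Set G) := by
    intro x hx
    exact Cfsg.Agent.Helper2.mem_normalizer_of_weaklyClosed hW x
      (fun z hz => (S : Subgroup G).mul_mem ((S : Subgroup G).mul_mem hx (hW.1 hz))
        ((S : Subgroup G).inv_mem hx))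
  apply le_antisymm
  · refine le_inf inf_le_left ?_
    apply wy_focal_of_residual S _ hSH
    apply Cfsg.Agent.Helper51.hw_tate S _ hSH
    intro A _ hA μ t ht
    have h1 := wy_transfer_eq S W hW hreg hA μ _ (t : G) ht.1 rfl
    rw [psi_of_mem μ t.2] at h1
    have h2 : MonoidHom.transfer μ (t : G) = 1 :=
      MonoidHom.mem_ker.mp (Abelianization.commutator_subset_ker _ ht.2)
    rw [h2] at h1
    exact h1.symm
  · refine inf_le_inf_left _ ?_
    rw [commutator_def]
    exact Subgroup.commutator_mono le_top le_top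

end Cfsg.Agent.Helper68
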